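import Cfsg.Agent.H4.Mc2b
import Cfsg.Agent.H8.PA2
import Cfsg.Agent.H8.MG5
import Cfsg.Agent.H1.MG1
/-! Automizers of order two in a simple group of order `443520`. -/
set_option autoImplicit false
open Cfsg CfH4 CfH4.GA CfH9 CfH4.D1 CfH4.PA CfH8.PA Subgroup Finset
open scoped ComplexConjugate
namespace CfH7.PA
universe u

theorem two_ent {ι : Type*} [Fintype ι] {u : ι → ℤ} {d : ι → ℕ} (h1 : ∑ i, u i * u i = 2) (h2 : ∑ i, u i * d i = 1)
    (hd : ∀ i, 1 < d i) : ∃ a b, a ≠ b ∧ u a = 1 ∧ u b = -1 ∧ d a = d b + 1 ∧ ∀ i, i ≠ a → i ≠ b → u i = 0 := by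
  classical
  have le : ∀ s : Finset ι, ∑ i ∈ s, u i * u i ≤ 2 := fun s =>
    h1 ▸ sum_le_sum_of_subset_of_nonneg (subset_univ s) fun i _ _ => mul_self_nonneg _
  obtain ⟨a, ha⟩ : ∃ a, 0 < u a := by
    by_contra c
    push Not at c
    have : ∑ i, u i * d i ≤ 0 := sum_nonpos fun i _ => mul_nonpos_of_nonpos_of_nonneg (c i) (Nat.cast_nonneg _)
    omega
  obtain ⟨b, hb⟩ : ∃ b, u b < 0 := by
    by_contra c
    push Not at c
    have := single_le_sum (f := fun i => u i * d i) (fun i _ => mul_nonneg (c i) (Nat.cast_nonneg _)) (mem_univ a)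
    have := hd a
    nlinarith
  have ab : a ≠ b := by rintro rfl; omega
  have z : ∀ i, i ≠ a → i ≠ b → u i = 0 := fun i ia ib => by
    have := le {i, a, b}
    rw [sum_insert (by simp [ia, ib]), sum_pair ab] at this
    nlinarith
  have := le {a, b}
  rw [sum_pair ab] at this
  have e1 : u a = 1 := by nlinarith
  have e2 : u b = -1 := by nlinarith
  rw [Fintype.sum_eq_add a b ab fun i hi => by rw [z i hi.1 hi.2, zero_mul], e1, e2] at h2
  exact ⟨a, b, ab, e1, e2, by omega, z⟩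

variable {G : Type u} [Group G] [Finite G]

theorem core (h1 : P1.{u}) (hs : IsSimpleGroup G) (hG : Nat.card G = 443520) {p : ℕ} [hp : Fact p.Prime] (p2 : p ≠ 2)
    {x : G} (h : Syl p x) (he : e p x = 2) : ∃ a b : Ir G, a ≠ b ∧ u x (1 : ZMod p) a.1 = 1 ∧
      u x (1 : ZMod p) b.1 = -1 ∧ dg a = dg b + 1 ∧ (∀ i, i ≠ a → i ≠ b → u x (1 : ZMod p) i.1 = 0) ∧
      ∃ c, c * c = Nat.card Cx(x) * 443520 * (dg b * (dg b + 1)) := by
  classical
  obtain ⟨S, ⟨s, -⟩, V⟩ := h1 hs hG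
  have D : ∀ i : Ir G, (i.1 : G → ℂ) 1 = ((dg i : ℤ) : ℂ) := fun i => by
    rw [Int.cast_natCast]; exact i.1.2.isCharacter.deg_eq.symm
  have a1 := gr h (one_ne_zero (α := ZMod p)) one_ne_zero
  rw [if_pos (by rw [mul_inv_cancel₀ one_ne_zero]; exact (EH h).one_mem), he] at a1
  obtain ⟨a, b, ab, ua, ub, dab, z⟩ := two_ent (u := fun i : Ir G => u x (1 : ZMod p) i.1) (d := dg)
    (by push_cast at a1; linarith) (ln h one_ne_zero PReg.one D) fun i => (S.dv i).2
  refine ⟨a, b, ab, ua, ub, dab, z, ?_⟩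
  have R : PReg p s.1 := by
    change (orderOf s.1).Coprime p
    rw [s.2]; exact (Nat.coprime_primes Nat.prime_two hp.out).2 p2.symm
  have l := ln h one_ne_zero R (V s)
  have q := h.quad (s := s.1) (by have := pow_orderOf_eq_one s.1; rwa [s.2, pow_two] at this) p2 one_ne_zero
  rw [Fintype.sum_eq_add a b ab fun i hi => by rw [z i hi.1 hi.2, zero_mul], ua, ub] at l
  rw [sum_Ir, h.u_triv one_ne_zero, hG, Fintype.sum_eq_add a b ab fun i hi => by
    rw [z i hi.1 hi.2, Int.cast_zero, zero_mul], ua, ub] at q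
  have va : vv s.1 a = vv s.1 b + 1 := by linarith
  simp only [V s, D, triv_apply, map_div₀, map_mul, map_intCast, map_one, va, dab] at q
  have lt := (abs_lt.1 ((S.inv s).lt b)).2
  generalize vv s.1 b = v at q lt
  have d1 := (S.dv b).2
  generalize dg b = d at q lt d1
  generalize Nat.card (Syl.A x s.1) = r at q
  generalize Nat.card Cx(x) = C at q
  have d0 : (d : ℂ) ≠ 0 := Nat.cast_ne_zero.2 (by omega)
  have d0' : (d : ℂ) + 1 ≠ 0 := by exact_mod_cast Nat.succ_ne_zero d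
  have k : (((C * 443520 * (d * (d + 1)) : ℕ) * (d - v) ^ 2 : ℤ) : ℂ) = (((r * (d * (d + 1)) : ℤ) ^ 2 : ℤ) : ℂ) := by
    push_cast at q ⊢
    field_simp at q
    linear_combination (-(d * (d + 1) : ℂ)) * q
  have k := Int.cast_injective k
  obtain ⟨t, ht⟩ := (Int.pow_dvd_pow_iff two_ne_zero).1 (Dvd.intro_left _ k)
  rw [ht, mul_pow, mul_comm, mul_right_inj' (pow_ne_zero _ (by omega))] at k
  exact ⟨t.natAbs, by exact_mod_cast (Int.natAbs_mul_self' t).trans ((pow_two t).symm.trans k.symm)⟩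

theorem num7 : ∀ K ∈ Nat.divisors 31680, 443520 / (7 * 2 * K) % 7 = 1 → ¬ 11 ∣ K → ∀ d < 666, 1 < d → d ∣ 443520 →
    d + 1 ∣ 443520 → Nat.sqrt (7 * K * 443520 * (d * (d + 1))) * Nat.sqrt (7 * K * 443520 * (d * (d + 1))) ≠
      7 * K * 443520 * (d * (d + 1)) := by decide +kernel

set_option synthInstance.maxSize 2000 in
theorem num11 : ∀ K ∈ Nat.divisors 20160, 443520 / (11 * 2 * K) % 11 = 1 → ∀ d < 666, 1 < d → d ∣ 443520 →
    d + 1 ∣ 443520 → Nat.sqrt (11 * K * 443520 * (d * (d + 1))) * Nat.sqrt (11 * K * 443520 * (d * (d + 1))) =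
      11 * K * 443520 * (d * (d + 1)) → K = 63 ∨ (2 ∣ K ∧ d ≤ 22) ∨ d = 35 ∨ d = 63 := by decide +kernel

theorem d_lt {d : ℕ} (h1 : d ∣ 443520) (h2 : d + 1 ∣ 443520) : d < 666 := by
  have := Nat.le_of_dvd (by norm_num) (Nat.Coprime.mul_dvd_of_dvd_of_dvd (by simp) h1 h2)
  nlinarith

theorem p3 : P3'.{u} := fun h1 G _ _ hs hG => by
  classical
  obtain ⟨S, -, V⟩ := h1 hs hG
  refine ⟨fun x hx he => ?_, fun x hx h11 he => ?_⟩
  swap
  · obtain ⟨K, k1, -, -, -, k2, k3, -, -, k4⟩ := CfH8.MG.g5 (by norm_num) (by rw [hG]; norm_num) (by rw [hG]; norm_num) hx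
    obtain ⟨a, b, -, -, -, dab, -, c⟩ := core h1 hs hG (p := 7) (by norm_num) ⟨hx, k4⟩ he
    rw [show Nat.card {t : ZMod 7 // IsConj x (x ^ t.val)} = 2 from he, hG] at k2 k3
    rw [k1] at c h11
    have da := (S.dv a).1
    rw [dab] at da
    exact num7 K (Nat.mem_divisors.2 ⟨Nat.dvd_of_mul_dvd_mul_left (by norm_num) (show 7 * 2 * K ∣ 7 * 2 * 31680 from k2),
      by norm_num⟩) k3 (fun e => h11 (e.mul_left 7)) _ (d_lt (S.dv b).1 da) (S.dv b).2 (S.dv b).1 da
      ((Nat.exists_mul_self _).1 c)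
  obtain ⟨K, k1, -, -, -, k2, k3, -, -, k4⟩ := CfH8.MG.g5 (by norm_num) (by rw [hG]; norm_num) (by rw [hG]; norm_num) hx
  have h : Syl 11 x := ⟨hx, k4⟩
  obtain ⟨a, b, ab, ua, ub, dab, z, c⟩ := core h1 hs hG (p := 11) (by norm_num) h he
  rw [show Nat.card {t : ZMod 11 // IsConj x (x ^ t.val)} = 2 from he, hG] at k2 k3
  rw [k1] at c
  have da := (S.dv a).1
  rw [dab] at da
  have B : ∀ i : Ir G, u x (1 : ZMod 11) i.1 ≠ 0 → i.1 ∈ B0 11 G := fun i k => by
    by_contra c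
    exact k (by simp [u, c])
  rcases num11 K (Nat.mem_divisors.2 ⟨Nat.dvd_of_mul_dvd_mul_left (by norm_num)
      (show 11 * 2 * K ∣ 11 * 2 * 20160 from k2), by norm_num⟩) k3 _ (d_lt (S.dv b).1 da) (S.dv b).2 (S.dv b).1 da
      ((Nat.exists_mul_self _).1 c) with rfl | ⟨k5, k6⟩ | k5
  · exact CfH1.MG.g1 hG hx k1
  · obtain ⟨⟨s, hsx⟩, so⟩ := exists_prime_orderOf_dvd_card' (G := Cx(x)) 2 (k1 ▸ k5.mul_left 11)
    replace so : orderOf s = 2 := (orderOf_coe _).trans so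
    obtain ⟨n, -, hn⟩ := h.inK (s := s) (by rw [← pow_two, ← so, pow_orderOf_eq_one]) (mem_Cx.1 hsx).symm (by norm_num)
      (B b (by rw [ub]; norm_num)) 0
    rw [V ⟨s, so⟩ b, ← b.1.2.isCharacter.deg_eq] at hn
    have hn : (dg b : ℤ) - vv s b = 2 * 11 * n := by exact_mod_cast hn
    have l1 : 4 ∣ (dg b : ℤ) - vv s b := (S.inv ⟨s, so⟩).m4 b
    have l2 : |vv s b| < dg b := (S.inv ⟨s, so⟩).lt b
    rw [abs_lt] at l2
    omega
  have U : ∀ j : ZMod 11, u x j a.1 = m x a.1 j - m x a.1 (0 : ZMod 11) := fun j => by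
    simp [u, B a (by rw [ua]; norm_num)]
  have cf := a.1.2.isCharacter.classFun
  have En : E x (-1 : ZMod 11) := by
    obtain ⟨⟨t, ht⟩, o⟩ := exists_prime_orderOf_dvd_card' (G := EH h) 2 (by rw [card_EH, he])
    replace o : orderOf t = 2 := (orderOf_coe _).trans o
    have : (t : ZMod 11) * t = 1 := by rw [← Units.val_mul, ← pow_two, ← o, pow_orderOf_eq_one, Units.val_one]
    rcases mul_self_eq_one_iff.1 this with e | e
    · rw [Units.val_eq_one.1 e, orderOf_one] at o; omega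
    · exact e ▸ ht
  have r : ∀ j : ZMod 11, j ≠ 0 → m x a.1 (0 : ZMod 11) ≤ m x a.1 j ∧ m x a.1 j ≤ m x a.1 (0 : ZMod 11) + 1 := fun j hj => by
    have g1 := gr h one_ne_zero hj
    have g2 := gr h hj hj
    rw [if_pos (by rw [mul_inv_cancel₀ hj]; exact (EH h).one_mem), he] at g2
    rw [Fintype.sum_eq_add a b ab fun i hi => by rw [z i hi.1 hi.2, zero_mul], ua, ub, he] at g1
    have g3 := sum_le_sum_of_subset_of_nonneg (f := fun i : Ir G => u x j i.1 * u x j i.1) (subset_univ {a, b})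
      fun i _ _ => mul_self_nonneg _
    rw [sum_pair ab] at g3
    have g4 := U j
    push_cast at g1 g2
    have : 0 ≤ u x j a.1 ∧ u x j a.1 ≤ 1 := by split_ifs at g1 <;> constructor <;> nlinarith
    omega
  have n : ∀ j : ZMod 11, m x a.1 (-j) = m x a.1 j := fun j => by simpa using h.m_mul cf j En
  have dd : dg a = ∑ j : ZMod 11, m x a.1 j := h.deg_eq a.1.2.isCharacter
  have ex : ∀ f : ZMod 11 → ℕ, ∑ j, f j = f 0 + f 1 + f 2 + f 3 + f 4 + f 5 + f (-5) + f (-4) + f (-3) + f (-2) + f (-1) :=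
    fun f => by
      have := Fin.sum_univ_def (n := 11) f
      simp only [List.finRange_succ, List.finRange_zero, List.map_cons, List.map_nil, List.sum_cons, List.sum_nil] at this
      simp only [add_assoc]
      exact this
  rw [ex, n, n, n, n, n] at dd
  have := r 1 (by decide)
  have := r 2 (by decide)
  have := r 3 (by decide)
  have := r 4 (by decide)
  have := r 5 (by decide)
  have : m x a.1 (0 : ZMod 11) = 3 ∨ m x a.1 (0 : ZMod 11) = 5 := by omega
  omega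

end CfH7.PA
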