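import Cfsg.Agent.OD.Pre
import Cfsg.Agent.H3.AutPSL2
import Cfsg.Agent.H2.Graph4
import Cfsg.Agent.H2.AutU

/-! The outer automorphism groups of the linear, symplectic and unitary groups are solvable. -/

set_option autoImplicit false
set_option linter.unusedSectionVars false

open Cfsg Subgroup Module
open scoped commutatorElement

namespace CfH7.Qk

theorem out_of_series {K : Type*} [Group K] (n : ℕ) (h : derivedSeries (MulAut K) n ≤ Inn K) :
    Group.IsSolvable (Out K) :=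
  ⟨⟨n, by
    rw [← map_derivedSeries_eq (QuotientGroup.mk'_surjective (Inn K)), Subgroup.map_eq_bot_iff,
      QuotientGroup.ker_mk']
    exact h⟩⟩

theorem ser_step {A : Type*} [Group A] {n : ℕ} {X Y : Subgroup A} (h : derivedSeries A n ≤ X)
    (h' : ∀ a ∈ X, ∀ b ∈ X, ⁅a, b⁆ ∈ Y) : derivedSeries A (n + 1) ≤ Y :=
  (commutator_mono h h).trans (commutator_le.2 h')

theorem ser_index {A : Type*} [Group A] {X : Subgroup A} (h : X.index = 1 ∨ X.index = 2) :
    derivedSeries A 1 ≤ X := by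
  refine ser_step (X := ⊤) le_top fun a _ b _ => ?_
  rcases h with h | h
  · rw [index_eq_one.1 h]; trivial
  · simp only [commutatorElement_def, mul_mem_iff_of_index_two h, inv_mem_iff]
    tauto

theorem comm_mem {A : Type*} [Group A] {D : Subgroup A} {a b d e : A}
    (ha : a ∈ normalizer (D : Set A)) (hb : b ∈ normalizer (D : Set A)) (hab : a * b = b * a)
    (hd : d ∈ D) (he : e ∈ D) : ⁅a * d, b * e⁆ ∈ D := by
  have : ⁅a * d, b * e⁆ = (a * d * a⁻¹) * ((a * b) * (e * d⁻¹) * (a * b)⁻¹) * (b * e⁻¹ * b⁻¹) := by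
    calc _ = (a * d * a⁻¹) * ((a * b) * (e * d⁻¹) * (a * b)⁻¹) * ((a * b) * a⁻¹ * e⁻¹ * b⁻¹) := by
          rw [commutatorElement_def]; group
      _ = _ := by rw [hab, mul_inv_cancel_right]
  rw [this]
  exact mul_mem (mul_mem ((mem_normalizer_iff.1 ha d).1 hd)
    ((mem_normalizer_iff.1 (mul_mem ha hb) _).1 (mul_mem he (inv_mem hd))))
    ((mem_normalizer_iff.1 hb _).1 (inv_mem he))

section form

open CfH2

variable {F V : Type*} [Field F] [AddCommGroup V] [Module F V]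
  {σ : F →+* F} {ε κ : F} {τ : F →+ F} {B : V →ₛₗ[σ] V →ₗ[F] F} {Q : V → F}
  {H G : Type*} [Group H] [Group G] {ρ : H →* (V ≃ₗ[F] V)} {π : H →* G}

def Indg (ρ : H →* (V ≃ₗ[F] V)) (π : H →* G) (α : MulAut G) (g : Equiv.Perm V) : Prop :=
  ∀ a a', α (π a) = π a' → ∃ c : F, ∀ v, ρ a' (g v) = c • g (ρ a v)

variable [Finite F] [FiniteDimensional F V] (S : Setup σ ε κ τ B Q ρ π)
include S

theorem Indg.mul {α β : MulAut G} {g g' : Equiv.Perm V} (hg : g ∈ Gam B Q) (h : Indg ρ π α g)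
    (h' : Indg ρ π β g') : Indg ρ π (α * β) (g * g') := fun a a'' e => by
  obtain ⟨s, l, hg⟩ := hg
  obtain ⟨a', ha'⟩ := S.surj (β (π a))
  obtain ⟨c, hc⟩ := h a' a'' (by rw [ha']; exact e)
  obtain ⟨c', hc'⟩ := h' a a' ha'.symm
  exact ⟨c * s c', fun v => by simp [hc, hc', hg.smul, mul_smul]⟩

theorem Indg.inv {α : MulAut G} {g : Equiv.Perm V} (hg : g ∈ Gam B Q) (h : Indg ρ π α g) :
    Indg ρ π α⁻¹ g⁻¹ := fun a a' h1 => by
  obtain ⟨s, l, hg⟩ := hg
  obtain ⟨c, hc⟩ := h a' a (by rw [← h1]; simp)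
  have hc0 : c ≠ 0 := by
    rintro rfl
    obtain ⟨v, hv⟩ := S.nontriv
    have := hc v
    simp [hg.eq_zero_iff, hv] at this
  refine ⟨s.symm c⁻¹, fun v => hg.bij.1 ?_⟩
  have he : ∀ v, g (g⁻¹ v) = v := fun v => by simp
  have := hc (g⁻¹ v)
  rw [he] at this
  rw [hg.smul, he, this, smul_smul]; simp [hc0]

def IndOf (Γ : Subgroup (Equiv.Perm V)) : Subgroup (MulAut G) where
  carrier := {α | ∃ g ∈ Γ, g ∈ Gam B Q ∧ Indg ρ π α g}
  mul_mem' := fun ⟨_, a, b, c⟩ ⟨_, d, e, f⟩ => ⟨_, mul_mem a d, mul_mem b e, c.mul S b f⟩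
  one_mem' := ⟨1, one_mem _, one_mem _, fun a a' e => by
    obtain ⟨c, hc⟩ := S.scalar_of_pi (a := a') (b := a) e.symm
    exact ⟨c, fun v => by simp [hc]⟩⟩
  inv_mem' := fun ⟨_, a, b, c⟩ => ⟨_, inv_mem a, inv_mem b, c.inv S b⟩

theorem IndOf_comm {Γ Γ' : Subgroup (Equiv.Perm V)}
    (h : ∀ g ∈ Γ, ∀ k ∈ Γ, g ∈ Gam B Q → k ∈ Gam B Q → ⁅g, k⁆ ∈ Γ') :
    ∀ a ∈ IndOf S Γ, ∀ b ∈ IndOf S Γ, ⁅a, b⁆ ∈ IndOf S Γ' := by
  rintro a ⟨g, g1, g2, g3⟩ b ⟨k, k1, k2, k3⟩
  exact ⟨_, h g g1 k k1 g2 k2, mul_mem (mul_mem (mul_mem g2 k2) (inv_mem g2)) (inv_mem k2),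
    ((g3.mul S g2 k3).mul S (mul_mem g2 k2) (g3.inv S g2)).mul S
      (mul_mem (mul_mem g2 k2) (inv_mem g2)) (k3.inv S k2)⟩

omit S in
/-- linear similarities -/
def Gam1 (B : V →ₛₗ[σ] V →ₗ[F] F) (Q : V → F) : Subgroup (Equiv.Perm V) where
  carrier := {g | ∃ l, IsSim B Q (RingEquiv.refl F) l g}
  mul_mem' := fun ⟨_, ha⟩ ⟨_, hb⟩ => ⟨_, ha.comp hb⟩
  one_mem' := ⟨_, isSim_of_isom (one_mem (Isom B Q))⟩
  inv_mem' := fun ⟨_, ha⟩ => ⟨_, ha.inv fun v => by simp⟩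

omit S in
theorem isSim_comm {s s' : F ≃+* F} {l l' : F} {g k : Equiv.Perm V} (hg : IsSim B Q s l g)
    (hk : IsSim B Q s' l' k) : IsSim B Q (s'.symm.trans (s.symm.trans (s'.trans s)))
      (l * s l' * (s'.trans s) (s.symm l⁻¹) * (s.symm.trans (s'.trans s)) (s'.symm l'⁻¹))
      (⁅g, k⁆ : Equiv.Perm V) :=
  ((hg.comp hk).comp (hg.inv (g' := (g⁻¹ : Equiv.Perm V)) fun v => by simp)).comp
    (hk.inv (g' := (k⁻¹ : Equiv.Perm V)) fun v => by simp)

theorem setup_out_solv (hi : S.Ind.index = 1 ∨ S.Ind.index = 2)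
    (hd : ∀ k ∈ Isom B Q, LinearEquiv.det k = 1 → ∃ a, ρ a = k) : Group.IsSolvable (Out G) := by
  let t := MulAction.toPermHom (V ≃ₗ[F] V) V
  have h1 : derivedSeries (MulAut G) 1 ≤ IndOf S ⊤ := (ser_index hi).trans (by
    rintro α ⟨s, l, g, hg, h⟩
    exact ⟨Equiv.ofBijective g hg.bij, trivial, ⟨s, l, hg⟩, h⟩)
  have h2 := ser_step h1 (IndOf_comm S (Γ' := Gam1 B Q) (by
    rintro g - k - ⟨s, l, hg⟩ ⟨s', l', hk⟩
    have := isSim_comm hg hk
    rw [show s'.symm.trans (s.symm.trans (s'.trans s)) = RingEquiv.refl F from RingEquiv.ext fun x => by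
      have := ringHom_comm (s : F →+* F) (s' : F →+* F) (s.symm (s'.symm x))
      simpa using this] at this
    exact ⟨_, this⟩))
  have h3 := ser_step h2 (IndOf_comm S (Γ' := (Isom B Q).map t) (by
    rintro g ⟨l, hg⟩ k ⟨l', hk⟩ - -
    have := isSim_comm hg hk
    have e : l * (RingEquiv.refl F) l' * ((RingEquiv.refl F).trans (RingEquiv.refl F))
        ((RingEquiv.refl F).symm l⁻¹) * ((RingEquiv.refl F).symm.trans ((RingEquiv.refl F).trans
        (RingEquiv.refl F))) ((RingEquiv.refl F).symm l'⁻¹) = 1 := by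
      have := hg.ne
      have := hk.ne
      simp only [RingEquiv.symm_refl, RingEquiv.trans_apply, RingEquiv.refl_apply]
      field_simp
    rw [e] at this
    obtain ⟨u, hu, hu'⟩ := IsSim.exists_isom this
    exact ⟨u, hu, Equiv.ext hu'⟩))
  have h4 := ser_step h3 (IndOf_comm S (Γ' := (t.comp ρ).range) (by
    rintro _ ⟨g, hg, rfl⟩ _ ⟨k, hk, rfl⟩ - -
    obtain ⟨a, ha⟩ := hd ⁅g, k⁆ (mul_mem (mul_mem (mul_mem hg hk) (inv_mem hg)) (inv_mem hk))
      (by rw [map_commutatorElement, commutatorElement_eq_one_iff_mul_comm, mul_comm])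
    exact ⟨a, by rw [MonoidHom.comp_apply, ha, map_commutatorElement]⟩))
  refine out_of_series _ (h4.trans ?_)
  rintro α ⟨_, ⟨a0, rfl⟩, -, h⟩
  refine ⟨π a0, MulEquiv.ext fun b => ?_⟩
  obtain ⟨a, rfl⟩ := S.surj b
  obtain ⟨a', ha'⟩ := S.surj (α (π a))
  obtain ⟨c, hc⟩ := h a a' ha'.symm
  rw [← ha', MulAut.conj_apply, ← map_inv, ← map_mul, ← map_mul]
  refine (S.pi_eq_of_scalar (c := c) fun v => ?_).symm
  have := hc (ρ a0⁻¹ v)
  simpa [t] using this

end form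

theorem out_psp {F : Type*} [Field F] [Fintype F] {m : ℕ} (hm : 2 ≤ m) :
    Group.IsSolvable (Out (PSp m F)) := by
  obtain ⟨p, _⟩ := CharP.exists F
  have : Fact p.Prime := ⟨CharP.char_is_prime F p⟩
  have h := CfH2.isWF_symp m F
  have hρ := CfH2.rep_sp m F
  have hd : Module.finrank F (Fin m ⊕ Fin m → F) = 2 * m := by simp; ring
  refine setup_out_solv (hρ.setup_sp h (by omega)) ?_ fun k hk _ => hρ.surj k hk
  by_cases hc : m = 2 ∧ p = 2
  · obtain ⟨rfl, rfl⟩ := hc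
    exact .inr (CfH2.exists_graph (CharP.cast_eq_zero F 2) hρ)
  · obtain ⟨x, hx⟩ := (hρ.setup_sp h (by omega)).nontriv
    left
    rw [Subgroup.index_eq_one, eq_top_iff]
    intro α _
    refine (hρ.sp_dichotomy p h (by omega) hx α).resolve_right ?_
    rintro ⟨h3, h4, -⟩
    exact hc ⟨by omega, h3⟩

open CfH2 in
theorem out_psu {F : Type*} [Field F] [Fintype F] {q n : ℕ} (hF : Fintype.card F = q ^ 2)
    (hn : 3 ≤ n) (h32 : ¬ (n = 3 ∧ q = 2)) : Group.IsSolvable (Out (PSU n F q)) := by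
  obtain ⟨p, _⟩ := CharP.exists F
  have : Fact p.Prime := ⟨CharP.char_is_prime F p⟩
  have h := isWF_hermB hF n
  have hρ := rep_SU hF n
  have hd : finrank F (Fin n → F) = n := by simp
  have hσ := frobQ_ne_id hF
  have hq2 := two_le_of_card_sq hF
  obtain ⟨x, -, hx0, hx⟩ := herm_exists_iso hF h h.nondegOn_top (by rw [finrank_top]; omega)
  have S := setup_center h (by omega) hρ.inj (fun a => (hρ.mem a).2)
    (fun x _ g hg => hρ.surj g ⟨det_of_RW p hg, hg.1⟩) hx hx0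
  have hσ' : ∃ t, t ≠ 1 * frobQ hF t := by
    obtain ⟨c, hc⟩ := exists_sigma_ne hσ
    exact ⟨c, by simpa using hc.symm⟩
  have hτ := exists_trc_zero hσ h.invol
  refine setup_out_solv S (.inl ?_) fun k hk e => hρ.surj k ⟨e, hk⟩
  rw [Subgroup.index_eq_one, eq_top_iff]
  intro α _
  by_cases h3 : finrank F (Fin n → F) = 3
  · obtain ⟨z, hz, hz0, hφ⟩ := S.exists_phi_of_center p hσ' hτ hx hx0 (S.irr_of_three h3 hx0) α
    exact S.induced_of_phi_three p hσ h3 (fun g hg hd => hρ.surj g ⟨mem_det_ker.2 hd, hg⟩)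
      (span_torus hF (by omega)) hx hx0 hz hz0 hφ
  · have hI : CaseI (trc (frobQ hF)) (hermB hF n) (fun x => hermB hF n x x) :=
      ⟨fun N hN hd => herm_exists_iso hF h hN (by omega), Or.inl hτ⟩
    obtain ⟨z, hz, hz0, hφ⟩ := S.exists_phi_of_center p hσ' hτ hx hx0
      (S.irr_of_caseI p hI hx hx0) α
    exact S.induced_of_phi_caseI p hI (Or.inl rfl) (fun s l t => trc_compat s l t) hx hx0 hz hz0 hφ

section psl

open CfH3 Matrix

variable {n : Type*} [Fintype n] [DecidableEq n] {F : Type*} [Field F]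

theorem mem_Nm_of {A : Type*} [Group A] [Finite A] {D : Subgroup A} {a : A}
    (h : ∀ d ∈ D, a * d * a⁻¹ ∈ D) : a ∈ normalizer (D : Set A) :=
  mem_normalizer_fintype h

theorem invTr_coe (s : SpecialLinearGroup n F) : (invTrSL n F s).1 = ((s⁻¹).1)ᵀ := rfl

theorem slE_coe (θ : F ≃+* F) (s : SpecialLinearGroup n F) :
    (slEquiv θ n s).1 = s.1.map θ := rfl

theorem out_psl [Finite F] [Nontrivial n] :
    Group.IsSolvable (Out (ProjectiveSpecialLinearGroup n F)) := by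
  obtain ⟨p, _⟩ := CharP.exists F
  letI := Fintype.ofFinite F
  have : Fact p.Prime := ⟨CharP.char_is_prime F p⟩
  let D : Subgroup (MulAut (SpecialLinearGroup n F)) := conjSL.range
  let sl : (F ≃+* F) → MulAut (SpecialLinearGroup n F) := fun θ => slEquiv θ n
  have n1 : invTrSL n F ∈ normalizer (D : Set (MulAut (SpecialLinearGroup n F))) := mem_Nm_of (by
    rintro _ ⟨g, rfl⟩
    refine ⟨⟨(g⁻¹ : GL n F).1ᵀ, g.1ᵀ, by rw [← transpose_mul]; simp, by rw [← transpose_mul]; simp⟩, ?_⟩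
    rw [eq_mul_inv_iff_mul_eq]
    ext s : 1
    rw [MulAut.mul_apply, MulAut.mul_apply, conjSL_eq_iff, invTr_coe, invTr_coe, ← map_inv,
      conjSL_coe]
    simp only [transpose_mul, Matrix.mul_assoc]
    rw [← transpose_mul (g⁻¹ : GL n F).1, Units.inv_mul, transpose_one, Matrix.mul_one])
  have n2 : ∀ θ, sl θ ∈ normalizer (D : Set (MulAut (SpecialLinearGroup n F))) :=
    fun θ => mem_Nm_of (by
    rintro _ ⟨g, rfl⟩
    refine ⟨glEquiv θ n g, ?_⟩
    rw [eq_mul_inv_iff_mul_eq]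
    ext s : 1
    rw [MulAut.mul_apply, MulAut.mul_apply, conjSL_eq_iff, slE_coe, slE_coe]
    change g.1.map θ * _ = _ * g.1.map θ
    rw [← Matrix.map_mul, ← Matrix.map_mul, conjSL_eq_iff.1 rfl])
  have c1 : ∀ θ, Commute (invTrSL n F) (sl θ) := fun θ => by
    ext s : 1
    apply Subtype.ext
    rw [MulAut.mul_apply, MulAut.mul_apply, invTr_coe, ← map_inv, slE_coe, slE_coe, invTr_coe,
      transpose_map]
  have c2 : ∀ θ θ', Commute (sl θ) (sl θ') := fun θ θ' => by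
    ext s i j
    exact CfH2.ringHom_comm (θ : F →+* F) (θ' : F →+* F) (s i j)
  let ι : Bool → MulAut (SpecialLinearGroup n F) := fun ε => if ε then invTrSL n F else 1
  have n3 : ∀ ε θ, ι ε * sl θ ∈ normalizer (D : Set (MulAut (SpecialLinearGroup n F))) :=
    fun ε θ => mul_mem (by cases ε; exacts [one_mem _, n1]) (n2 θ)
  have c3 : ∀ ε θ, Commute (ι ε) (sl θ) := fun ε θ => by
    cases ε; exacts [Commute.one_left _, c1 θ]
  have c4 : ∀ ε ε', Commute (ι ε) (ι ε') := fun ε ε' => by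
    cases ε <;> cases ε' <;> first | exact Commute.refl _ | exact Commute.one_left _ | exact Commute.one_right _
  have key : ∀ α : MulAut (ProjectiveSpecialLinearGroup n F), ∃ ε θ, ∃ d ∈ D,
      α = autCenterQuot _ (ι ε * sl θ * d) := fun α => by
    obtain ⟨ε, g, θ, -, rfl⟩ := exists_std p α
    refine ⟨ε, θ, (sl θ)⁻¹ * conjSL g * (sl θ)⁻¹⁻¹,
      (mem_normalizer_iff.1 (inv_mem (n2 θ)) _).1 ⟨g, rfl⟩, congrArg _ ?_⟩
    change ι ε * conjSL g * sl θ = _
    group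
  have h1 : derivedSeries (MulAut (ProjectiveSpecialLinearGroup n F)) 1 ≤
      D.map (autCenterQuot _) := ser_step (X := ⊤) le_top fun a _ b _ => by
    obtain ⟨ε, θ, d, hd, rfl⟩ := key a
    obtain ⟨ε', θ', d', hd', rfl⟩ := key b
    rw [← map_commutatorElement]
    exact mem_map_of_mem _ (comm_mem (n3 ε θ) (n3 ε' θ')
      (((c4 ε ε').mul_right (c3 ε θ')).mul_left (((c3 ε' θ).symm).mul_right (c2 θ θ'))) hd hd')
  refine out_of_series _ (ser_step h1 ?_)
  rintro _ ⟨_, ⟨g, rfl⟩, rfl⟩ _ ⟨_, ⟨k, rfl⟩, rfl⟩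
  rw [← map_commutatorElement, ← map_commutatorElement]
  have hd : (⁅g, k⁆ : GL n F).1.det = 1 := by
    have : GeneralLinearGroup.det ⁅g, k⁆ = 1 := by
      rw [map_commutatorElement, commutatorElement_eq_one_iff_mul_comm, mul_comm]
    exact congrArg Units.val this
  exact ⟨_, (conjPSL_of_smul (g := ⁅g, k⁆) (u := ⟨_, hd⟩) (c := 1) (by simp)).symm⟩

end psl

end CfH7.Qk
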