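import Cfsg.Agent.OD.Pre

/-! A model of the wreath products `D₈ ≀ 2` and `S₄ ≀ 2`, with finite facts about them. -/

set_option autoImplicit false
set_option linter.unusedSectionVars false
set_option maxHeartbeats 400000
set_option maxRecDepth 100000

open Cfsg Subgroup Equiv

namespace CfH7.SW

/-- wreath product with the group of order two -/
structure Wr (α : Type) where
  l : α
  r : α
  e : Bool

namespace Wr

variable {α β : Type}

theorem ext' {x y : Wr α} (h1 : x.l = y.l) (h2 : x.r = y.r) (h3 : x.e = y.e) : x = y := by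
  cases x; cases y; simp_all

instance instDecEq [DecidableEq α] : DecidableEq (Wr α) := fun x y =>
  decidable_of_iff (x.e = y.e ∧ x.l = y.l ∧ x.r = y.r)
    ⟨fun h => ext' h.2.1 h.2.2 h.1, fun h => h ▸ ⟨rfl, rfl, rfl⟩⟩

def eqv (α : Type) : Wr α ≃ α × α × Bool :=
  ⟨fun x => (x.l, x.r, x.e), fun x => ⟨x.1, x.2.1, x.2.2⟩, fun _ => rfl, fun _ => rfl⟩

instance instFin [Fintype α] : Fintype (Wr α) := Fintype.ofEquiv _ (eqv α).symm

variable [Group α] [Group β]

instance instMulWr : Mul (Wr α) :=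
  ⟨fun x y => ⟨x.l * cond x.e y.r y.l, x.r * cond x.e y.l y.r, xor x.e y.e⟩⟩
instance instOneWr : One (Wr α) := ⟨⟨1, 1, false⟩⟩
instance instInvWr : Inv (Wr α) :=
  ⟨fun x => ⟨cond x.e x.r⁻¹ x.l⁻¹, cond x.e x.l⁻¹ x.r⁻¹, x.e⟩⟩

theorem mul_def (x y : Wr α) :
    x * y = ⟨x.l * cond x.e y.r y.l, x.r * cond x.e y.l y.r, xor x.e y.e⟩ := rfl
theorem one_def : (1 : Wr α) = ⟨1, 1, false⟩ := rfl
theorem inv_def (x : Wr α) :
    x⁻¹ = ⟨cond x.e x.r⁻¹ x.l⁻¹, cond x.e x.l⁻¹ x.r⁻¹, x.e⟩ := rfl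

instance instGroupWr : Group (Wr α) := Group.ofLeftAxioms
  (by rintro ⟨a, b, _ | _⟩ ⟨c, d, _ | _⟩ ⟨e, f, _ | _⟩ <;> simp [mul_def, mul_assoc])
  (by rintro ⟨a, b, _ | _⟩ <;> simp [mul_def, one_def])
  (by rintro ⟨a, b, _ | _⟩ <;> simp [mul_def, one_def, inv_def])

def map (f : α →* β) : Wr α →* Wr β :=
  MonoidHom.mk' (fun x => ⟨f x.l, f x.r, x.e⟩)
    (by rintro ⟨a, b, _ | _⟩ ⟨c, d, _ | _⟩ <;> simp [mul_def])

theorem map_injective {f : α →* β} (hf : Function.Injective f) : Function.Injective (map f) :=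
  fun x y h => ext' (hf (congrArg Wr.l h)) (hf (congrArg Wr.r h)) (congrArg Wr.e h :)

def inr : α →* Wr α := MonoidHom.mk' (fun x => ⟨1, x, false⟩) (by intro a b; simp [mul_def])

theorem inr_injective : Function.Injective (inr : α →* Wr α) := fun _ _ h => congrArg Wr.r h

end Wr

/-- the dihedral group of order eight: `t ^ a * t' ^ b * v ^ c` -/
structure D8 where
  a : Bool
  b : Bool
  c : Bool

namespace D8

instance instDecEq : DecidableEq D8 := fun x y =>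
  decidable_of_iff (x.a = y.a ∧ x.b = y.b ∧ x.c = y.c)
    ⟨fun h => by cases x; cases y; simp_all, fun h => h ▸ ⟨rfl, rfl, rfl⟩⟩

def eqv : D8 ≃ Bool × Bool × Bool :=
  ⟨fun x => (x.a, x.b, x.c), fun x => ⟨x.1, x.2.1, x.2.2⟩, fun _ => rfl, fun _ => rfl⟩

instance instFin : Fintype D8 := Fintype.ofEquiv _ eqv.symm

instance (priority := high) decAll (P : D8 → Prop) [DecidablePred P] : Decidable (∀ x, P x) :=
  decidable_of_iff (∀ a b c, P ⟨a, b, c⟩) ⟨fun h x => h x.a x.b x.c, fun h _ _ _ => h _⟩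

instance (priority := high) decEx (P : D8 → Prop) [DecidablePred P] : Decidable (∃ x, P x) :=
  decidable_of_iff (∃ a b c, P ⟨a, b, c⟩) ⟨fun ⟨_, _, _, h⟩ => ⟨_, h⟩, fun ⟨x, h⟩ => ⟨x.a, x.b, x.c, h⟩⟩

instance instMulD : Mul D8 :=
  ⟨fun x y => ⟨xor x.a (cond x.c y.b y.a), xor x.b (cond x.c y.a y.b), xor x.c y.c⟩⟩
instance instOneD : One D8 := ⟨⟨false, false, false⟩⟩
instance instInvD : Inv D8 := ⟨fun x => ⟨cond x.c x.b x.a, cond x.c x.a x.b, x.c⟩⟩

instance instGroupD : Group D8 := Group.ofLeftAxioms (by decide +kernel) (by decide +kernel)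
  (by decide +kernel)

end D8

abbrev Tm := Wr D8
abbrev S4 := Perm (Fin 4)
abbrev Wm := Wr S4

instance (priority := high) decAllT (P : Tm → Prop) [DecidablePred P] : Decidable (∀ x, P x) :=
  decidable_of_iff (∀ e l r, P ⟨l, r, e⟩) ⟨fun h x => h x.e x.l x.r, fun h _ _ _ => h _⟩

instance (priority := high) decExT (P : Tm → Prop) [DecidablePred P] : Decidable (∃ x, P x) :=
  decidable_of_iff (∃ e l r, P ⟨l, r, e⟩) ⟨fun ⟨_, _, _, h⟩ => ⟨_, h⟩, fun ⟨x, h⟩ => ⟨x.e, x.l, x.r, h⟩⟩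

theorem card_Tm : Nat.card Tm = 128 := by
  rw [Nat.card_congr (Wr.eqv D8), Nat.card_prod, Nat.card_prod, Nat.card_congr D8.eqv]
  simp

def dP : D8 →* S4 := MonoidHom.mk'
  (fun x => cond x.a (swap 0 1) 1 * cond x.b (swap 2 3) 1 * cond x.c (swap 0 2 * swap 1 3) 1)
  (by decide +kernel)

theorem dP_inj : Function.Injective dP := by
  intro x y; revert x y; decide +kernel

def tau : Tm →* Wm := Wr.map dP

theorem tau_inj : Function.Injective tau := Wr.map_injective dP_inj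

def dT : D8 := ⟨true, false, false⟩
def dA : D8 := ⟨true, true, false⟩
def dV : D8 := ⟨false, false, true⟩

def t1 : Tm := ⟨dT, 1, false⟩
def a1 : Tm := ⟨dA, 1, false⟩
def v1 : Tm := ⟨dV, 1, false⟩
def t2 : Tm := ⟨1, dT, false⟩
def a2 : Tm := ⟨1, dA, false⟩
def v2 : Tm := ⟨1, dV, false⟩
def zz : Tm := ⟨dA, dA, false⟩
def ss : Tm := ⟨1, 1, true⟩
def c3 : S4 := swap 0 1 * swap 0 2
def y1 : Wm := ⟨c3, 1, false⟩
def y2 : Wm := ⟨1, c3, false⟩

def kV (d : D8) : Prop := d.a = d.b ∧ d ≠ 1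
def kT (d : D8) : Prop := d.a ≠ d.b ∧ d.c = false
instance decKV : DecidablePred kV := fun d => by unfold kV; infer_instance
instance decKT : DecidablePred kT := fun d => by unfold kT; infer_instance

def isA (x : Tm) : Prop := x.e = false ∧ ((kV x.l ∧ x.r = 1) ∨ (x.l = 1 ∧ kV x.r))
def isZ (x : Tm) : Prop := x.e = false ∧ kV x.l ∧ kV x.r
def isT (x : Tm) : Prop := x.e = false ∧ ((kT x.l ∧ x.r = 1) ∨ (x.l = 1 ∧ kT x.r))
def isU (x : Tm) : Prop := x.e = false ∧ kT x.l ∧ kT x.r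
def isW (x : Tm) : Prop := x.e = false ∧ ((kT x.l ∧ kV x.r) ∨ (kV x.l ∧ kT x.r))
def isS (x : Tm) : Prop := x.e = true ∧ x * x = 1
/-- membership in the centre of `D₈ × D₈` -/
def cz (x : Tm) : Prop := x = 1 ∨ x = a1 ∨ x = a2 ∨ x = zz
instance decIsA : DecidablePred isA := fun d => by unfold isA; infer_instance
instance decIsZ : DecidablePred isZ := fun d => by unfold isZ; infer_instance
instance decIsT : DecidablePred isT := fun d => by unfold isT; infer_instance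
instance decIsU : DecidablePred isU := fun d => by unfold isU; infer_instance
instance decIsW : DecidablePred isW := fun d => by unfold isW; infer_instance
instance decIsS : DecidablePred isS := fun d => by unfold isS; infer_instance
instance decCz : DecidablePred cz := fun d => by unfold cz; infer_instance

theorem repA : ∀ x, isA x → ∃ g : Tm, x = g * a1 * g⁻¹ ∨ x = g * v1 * g⁻¹ := by decide +kernel
theorem repZ : ∀ x, isZ x → ∃ g : Tm, x = g * zz * g⁻¹ ∨ x = g * (v1 * a2) * g⁻¹ ∨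
    x = g * (v1 * v2) * g⁻¹ := by decide +kernel
theorem repT : ∀ x, isT x → ∃ g : Tm, x = g * t2 * g⁻¹ := by decide +kernel
theorem repU : ∀ x, isU x → ∃ g : Tm, x = g * (t1 * t2) * g⁻¹ := by decide +kernel
theorem repW : ∀ x, isW x → ∃ g : Tm, x = g * (a1 * t2) * g⁻¹ ∨ x = g * (v1 * t2) * g⁻¹ := by
  decide +kernel
theorem repS : ∀ x, isS x → ∃ g : Tm, x = g * ss * g⁻¹ := by decide +kernel

theorem zz_central : ∀ x : Tm, x * zz = zz * x := by decide +kernel

theorem cnt12 : ∀ X : Tm, X.e = true → X * X = 1 →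
    (Finset.univ.filter fun Y : Tm => Y * Y = 1 ∧ Y * X = X * Y).card ≤ 12 := by decide +kernel

theorem cntJ : ∀ y : Tm, y.e = false → y * y = 1 →
    13 ≤ (Finset.univ.filter fun w : Tm => w.e = false ∧ w * w = 1 ∧ w * y = y * w).card := by
  decide +kernel

theorem twoInv : ∀ y : Tm, y.e = false → ∃ p : Tm, p.e = false ∧ p * p = 1 ∧
    p * y * (p * y) = 1 := by decide +kernel

theorem mul_e : ∀ x y : Tm, x.e = false → y.e = false → (x * y).e = false := by
  intro x y hx hy; rw [Wr.mul_def]; simp [hx, hy]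

theorem cz_comm : ∀ c : Tm, cz c → ∀ y : Tm, y.e = false → c * y = y * c := by decide +kernel

theorem fact_naz : ∀ V : Tm, V.e = false → V * V = 1 → ∀ T : Tm, T.e = false → T * T = 1 →
    V * T * (V * T) = zz → ∀ X : Tm, X.e = false → X * V = V * X → X * T = T * X → cz X := by
  decide +kernel

theorem sq_cz : ∀ x : Tm, x.e = false → cz (x * x) := by decide +kernel

theorem cz_e : ∀ c : Tm, cz c → c ≠ 1 → c ≠ zz → ∀ q : Tm, q * c = c * q → q.e = false := by
  decide +kernel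

theorem fact_NJ1 : ∀ V : Tm, V.e = false → V * V = 1 → ∀ T : Tm, T.e = false → T * T = 1 →
    V * T * (V * T) = a2 → ∀ X : Tm, X.e = false → X * V = V * X → X * T = T * X →
      X.r = 1 ∨ X.r = dA := by decide +kernel

theorem fact_NJ2 : ∀ V : Tm, V.e = false → V * V = 1 → (V.r = 1 ∨ V.r = dA) →
    ∀ T : Tm, T.e = false → T * T = 1 → (T.r = 1 ∨ T.r = dA) → V * T * (V * T) = a1 →
      cz (v1 * V) ∨ (cz (t1 * V) ∧ cz (v1 * T)) := by decide +kernel

theorem fact_NJ3 : ∀ j : Tm, j.e = false → ¬ cz (t1 * (j * v1 * j⁻¹)) := by decide +kernel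

theorem cz_mul : ∀ c : Tm, cz c → ∀ d : Tm, cz d → cz (c * d) := by decide +kernel

def inE (x : Tm) : Prop := x.e = false ∧ x.l.a = x.l.b ∧ (x.r = 1 ∨ x.r = dA)
def inD (x : Tm) : Prop := x.e = false ∧ x.l.a = x.l.b ∧ x.r.c = false
def inV (x : Tm) : Prop := x.e = false ∧ x.l.a = x.l.b ∧ x.r = 1
def inR (x : Tm) : Prop := x.e = false ∧ x.l.a = x.l.b
instance decInE : DecidablePred inE := fun d => by unfold inE; infer_instance
instance decInD : DecidablePred inD := fun d => by unfold inD; infer_instance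
instance decInV : DecidablePred inV := fun d => by unfold inV; infer_instance
instance decInR : DecidablePred inR := fun d => by unfold inR; infer_instance

theorem inE_mul : ∀ x, inE x → ∀ y, inE y → inE (x * y) := by decide +kernel
theorem inD_mul : ∀ x, inD x → ∀ y, inD y → inD (x * y) := by decide +kernel
theorem inV_mul : ∀ x, inV x → ∀ y, inV y → inV (x * y) := by decide +kernel
theorem inE_inv : ∀ x, inE x → inE x⁻¹ := by decide +kernel
theorem inD_inv : ∀ x, inD x → inD x⁻¹ := by decide +kernel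
theorem inV_inv : ∀ x, inV x → inV x⁻¹ := by decide +kernel
theorem inv_e : ∀ x : Tm, x.e = false → x⁻¹.e = false := fun _ h => h

def Jm : Subgroup Tm := ⟨⟨⟨{x | x.e = false}, fun {x y} hx hy => mul_e x y hx hy⟩, rfl⟩,
  fun {x} hx => inv_e x hx⟩
def Em : Subgroup Tm := ⟨⟨⟨{x | inE x}, fun {x y} hx hy => inE_mul x hx y hy⟩,
  show inE 1 by decide⟩, fun {x} hx => inE_inv x hx⟩
def Dm : Subgroup Tm := ⟨⟨⟨{x | inD x}, fun {x y} hx hy => inD_mul x hx y hy⟩,
  show inD 1 by decide⟩, fun {x} hx => inD_inv x hx⟩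
def Vm : Subgroup Tm := ⟨⟨⟨{x | inV x}, fun {x y} hx hy => inV_mul x hx y hy⟩,
  show inV 1 by decide⟩, fun {x} hx => inV_inv x hx⟩

theorem mem_Jm {x : Tm} : x ∈ Jm ↔ x.e = false := Iff.rfl
theorem mem_Em {x : Tm} : x ∈ Em ↔ inE x := Iff.rfl
theorem mem_Dm {x : Tm} : x ∈ Dm ↔ inD x := Iff.rfl
theorem mem_Vm {x : Tm} : x ∈ Vm ↔ inV x := Iff.rfl

theorem cond_mem {K : Subgroup Tm} {x : Tm} (h : x ∈ K) (b : Bool) : cond b x 1 ∈ K := by
  cases b
  exacts [K.one_mem, h]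

theorem Vm_le {K : Subgroup Tm} (h1 : v1 ∈ K) (h2 : a1 ∈ K) : Vm ≤ K := fun x hx => by
  have : ∀ x, inV x → ∃ i j : Bool, x = cond i v1 1 * cond j a1 1 := by decide +kernel
  obtain ⟨i, j, rfl⟩ := this x hx
  exact mul_mem (cond_mem h1 i) (cond_mem h2 j)

theorem Em_le {K : Subgroup Tm} (h1 : v1 ∈ K) (h2 : a1 ∈ K) (h3 : a2 ∈ K) : Em ≤ K := fun x hx => by
  have : ∀ x, inE x → ∃ i j k : Bool, x = cond i v1 1 * cond j a1 1 * cond k a2 1 := by
    decide +kernel
  obtain ⟨i, j, k, rfl⟩ := this x hx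
  exact mul_mem (mul_mem (cond_mem h1 i) (cond_mem h2 j)) (cond_mem h3 k)

theorem Dm_le {K : Subgroup Tm} (h1 : v1 ∈ K) (h2 : a1 ∈ K) (h3 : t2 ∈ K) (h4 : a2 ∈ K) :
    Dm ≤ K := fun x hx => by
  have : ∀ x, inD x → ∃ i j k l : Bool,
      x = cond i v1 1 * cond j a1 1 * cond k t2 1 * cond l a2 1 := by decide +kernel
  obtain ⟨i, j, k, l, rfl⟩ := this x hx
  exact mul_mem (mul_mem (mul_mem (cond_mem h1 i) (cond_mem h2 j)) (cond_mem h3 k)) (cond_mem h4 l)

theorem J_conj : ∀ j : Tm, ∀ x : Tm, x.e = false → (j * x * j⁻¹).e = false := by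
  rintro ⟨a, b, _ | _⟩ x hx <;> simp [Wr.mul_def, Wr.inv_def, hx]
theorem E_conj : ∀ j : Tm, j.e = false → ∀ x, inE x → inE (j * x * j⁻¹) := by decide +kernel
theorem D_conj : ∀ j : Tm, j.e = false → ∀ x, inD x → inD (j * x * j⁻¹) := by decide +kernel

def chi (x : Tm) : ZMod 2 := cond (xor (xor (xor (xor x.l.a x.l.b) x.r.a) x.r.b) x.e) 1 0

theorem chi_mul : ∀ x y : Tm, chi (x * y) = chi x + chi y := by decide +kernel

theorem fact_ker : ∀ X : Tm, chi X = 0 → X * X = 1 → X ≠ 1 → isA X ∨ isZ X ∨ isU X := by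
  decide +kernel

theorem fact_U : ∀ X : Tm, isU X → ∀ V : Tm, V.e = false → V * X = X * V →
    ∀ T : Tm, T.e = false → T * X = X * T → V * T = T * V := by decide +kernel

theorem cntR : ∀ y : Tm, y = v1 ∨ y = t1 ∨ y = a2 →
    13 ≤ (Finset.univ.filter fun w : Tm => w * t2 = t2 * w ∧ w * w = 1 ∧ w * y = y * w).card := by
  decide +kernel

theorem cntA : ∀ y : Tm, y = v1 ∨ y = t1 ∨ y = v2 ∨ y = t2 →
    13 ≤ (Finset.univ.filter fun w : Tm => w * a1 = a1 * w ∧ w * w = 1 ∧ w * y = y * w).card := by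
  decide +kernel

theorem fact_J1 : ∀ j : Tm, j.e = false → ∀ x : Tm, x.e = false → cz (j * x * j⁻¹ * x⁻¹) := by
  decide +kernel

theorem fact_J2 : ∀ x : Tm, x.e = false → ¬ cz x →
    ∃ j : Tm, j.e = false ∧ j * x * j⁻¹ * x⁻¹ ≠ 1 := by decide +kernel

theorem fact_J3 : ∀ A : Tm, cz A → A ≠ 1 → ∀ T : Tm, cz T → T ≠ 1 → A ≠ T →
    ∀ c : Tm, cz c ↔ c = 1 ∨ c = A ∨ c = T ∨ c = A * T := by decide +kernel

theorem fact_J4 : ∀ A : Tm, cz A → A ≠ 1 → A ≠ zz → isA (A * zz) ∧ (A ≠ a1 → isZ (A * a1)) := by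
  decide +kernel

theorem fact_R : ∀ x : Tm, x.e = false → x * v1 = v1 * x → inR x := by decide +kernel

theorem fact_CE : ∀ x0 : Tm, inR x0 → ∀ x1 : Tm, inR x1 → (inE x0 ↔ inE x1) →
    (x0 * x0 = 1 ↔ x1 * x1 = 1) → ∀ x2 : Tm, inR x2 → (inE x1 ↔ inE x2) →
    (x1 * x1 = 1 ↔ x2 * x2 = 1) → (inE (x0⁻¹ * x1) ↔ inE (x1⁻¹ * x2)) → inE (x0⁻¹ * x2) := by
  decide +kernel

theorem E_sq : ∀ x : Tm, inE x → x * x = 1 := by decide +kernel

theorem fact_D : ∀ d : Tm, d.e = false → d * v1 = v1 * d → d * t2 = t2 * d → inD d := by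
  decide +kernel

theorem fact_yD : ∀ d : Tm, inD d → ∃ d' : Tm, inD d' ∧ tau d' = y1 * tau d * y1⁻¹ := by
  decide +kernel

theorem D_comm : ∀ d : Tm, inD d → ∀ d' : Tm, inD d' → d * d' = d' * d := by decide +kernel
theorem D_sq : ∀ d : Tm, inD d → d * d = 1 := by decide +kernel
theorem D_t1 : ∀ d : Tm, inD d → t1 = d * t1 * d⁻¹ ∨ a1 * t1 = d * t1 * d⁻¹ := by decide +kernel

theorem fact_cy : ∀ x : Tm, x.e = false → tau x * y1 = y1 * tau x → x.l = 1 := by decide +kernel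

def dl : DihedralGroup 4 →* D8 := MonoidHom.mk'
  (fun x => match x with
    | .r i => (dV * dT * dA) ^ i.val
    | .sr i => dV * (dV * dT * dA) ^ i.val) (by decide +kernel)

theorem dl_inj : Function.Injective dl := by intro x y; revert x y; decide +kernel
theorem dl_surj : ∀ d : D8, ∃ m, dl m = d := by decide +kernel
theorem dl_zc : ∀ m : DihedralGroup 4, m * .r 2 = .r 2 * m := by decide +kernel
theorem dl_z : Wr.inr (dl (.r 2)) = a2 := by decide +kernel
theorem dl_a : Wr.inr (dl (.sr 0)) = v2 := by decide +kernel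
theorem dl_b : Wr.inr (dl (.sr 1)) = t2 * a2 := by decide +kernel

theorem fact_s0 : ∀ x : Tm, x * ss = ss * x → x * x = 1 → x ≠ 1 → isZ x ∨ isU x ∨ isS x := by
  decide +kernel

def good (X : Tm) : Prop := X.e = false ∧ X * X = 1 ∧ X ≠ 1 ∧ ¬ isA X ∧ ¬ isT X ∧
  ¬ isZ (a1 * X) ∧ ¬ isW (a1 * X) ∧ ¬ isU (a1 * X)
instance decGood : DecidablePred good := fun d => by unfold good; infer_instance

theorem fact_sa : ∀ X : Tm, good X → ∀ Y : Tm, good Y → ¬ good (X * Y) := by decide +kernel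

def nz (X : Tm) : Prop := ¬ isA X ∧ ¬ isT X ∧ ¬ isA (zz * X) ∧ ¬ isT (zz * X)
instance decNz : DecidablePred nz := fun d => by unfold nz; infer_instance

theorem fact_sz : ∀ P : Tm, P * P = 1 → nz P → ∀ Q : Tm, Q * Q = 1 → nz Q →
    P * Q * (P * Q) * (P * Q * (P * Q)) = 1 → P * Q * (P * Q) ≠ 1 → P * Q * (P * Q) ≠ zz → nz (P * Q * (P * Q)) →
    nz (P * (P * Q * (P * Q))) → ¬ nz (Q * (P * Q * (P * Q))) := by decide +kernel

def ks : Fin 6 → S4 := ![1, swap 1 2, swap 1 3, swap 0 2, swap 0 3, swap 0 2 * swap 1 3]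

def ws : Option (Fin 6) → Wm
  | none => tau t1
  | some i => Wr.inr (ks i) * tau (t2 * t1) * (Wr.inr (ks i))⁻¹

theorem ws_inj : Function.Injective ws := by intro x y; revert x y; decide +kernel
theorem ws_comm : ∀ i, ws i * tau t1 = tau t1 * ws i := by decide +kernel
theorem ws_ncomm : ws (some 1) * tau (t2 * t1) ≠ tau (t2 * t1) * ws (some 1) := by decide +kernel

theorem inr_comm (k : S4) (x : S4) : (Wr.inr k : Wm) * ⟨x, 1, false⟩ = ⟨x, 1, false⟩ * Wr.inr k := by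
  simp [Wr.inr, Wr.mul_def]

theorem tau_l (d : D8) : tau ⟨d, 1, false⟩ = ⟨dP d, 1, false⟩ := by
  simp [tau, Wr.map]

theorem tau_inr (d : D8) : tau (Wr.inr d) = Wr.inr (dP d) := by
  simp [tau, Wr.map, Wr.inr]

def om : Wm →* Perm (Fin 4 ⊕ Fin 4) := MonoidHom.mk'
  (fun x => Equiv.sumCongr x.l x.r * cond x.e (Equiv.sumComm (Fin 4) (Fin 4)) 1)
  (by rintro ⟨a, b, _ | _⟩ ⟨c, d, _ | _⟩ <;> ext (x | x) <;> simp [Wr.mul_def])

theorem om_inj : Function.Injective om := by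
  rw [injective_iff_map_eq_one]
  rintro ⟨a, b, _ | _⟩ h
  · have h1 : ∀ x, a x = x := fun x => by simpa [om] using congrArg (· (Sum.inl x)) h
    have h2 : ∀ x, b x = x := fun x => by simpa [om] using congrArg (· (Sum.inr x)) h
    exact Wr.ext' (Equiv.ext h1) (Equiv.ext h2) rfl
  · simpa [om] using congrArg (· (Sum.inl 0)) h

open Pointwise in
theorem om_mem (x : Wm) : om x ∈ blockStabilizerS4wr2 := by
  have key : ∀ (g : Perm (Fin 4 ⊕ Fin 4)) (i j : Fin 4 → Fin 4 ⊕ Fin 4) (a : S4),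
      (∀ x, g (i x) = j (a x)) → g • Set.range i = Set.range j := by
    intro g i j a h
    rw [Set.smul_set_range]
    ext y
    constructor
    · rintro ⟨x, rfl⟩; exact ⟨a x, (h x).symm⟩
    · rintro ⟨x, rfl⟩; exact ⟨a.symm x, by simp [Perm.smul_def, h]⟩
  unfold blockStabilizerS4wr2
  rw [MulAction.mem_stabilizer_iff, Set.smul_set_insert, Set.smul_set_singleton]
  obtain ⟨a, b, _ | _⟩ := x
  · rw [key _ Sum.inl Sum.inl a (by simp [om]), key _ Sum.inr Sum.inr b (by simp [om])]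
  · rw [key _ Sum.inl Sum.inr b (by simp [om]), key _ Sum.inr Sum.inl a (by simp [om]),
      Set.pair_comm]

end CfH7.SW
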