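import Cfsg.Agent.H7.SW1
import Cfsg.Agent.H7.CharP
import Cfsg.Agent.H9.Yoshida

/-! Fusion in a perfect group containing `S₄ ≀ 2` with odd index. -/

set_option autoImplicit false
set_option linter.unusedSectionVars false
set_option maxHeartbeats 400000

open Cfsg Subgroup CfH9 Equiv

namespace CfH7.SW

variable {G : Type*} [Group G]

def ff (φ : Wm →* G) : Tm →* G := φ.comp tau

structure Hyp (φ : Wm →* G) : Prop where
  inj : Function.Injective φ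
  syl : SylIn 2 (ff φ).range ⊤
  chp : ChP 2 Cx(ff φ zz)
  perf : commutator G = ⊤
  qt : PRankLE 3 2 Nm(Vm.map (ff φ))

def Fus (φ : Wm →* G) (g : G) (x X : Tm) : Prop := ff φ X = g * ff φ x * g⁻¹

variable {φ : Wm →* G} {g k : G} {x y X Y : Tm}

theorem Fus.eq (h : Fus φ g x X) : ff φ X = g * ff φ x * g⁻¹ := h

theorem Fus.mul (h1 : Fus φ g x X) (h2 : Fus φ g y Y) : Fus φ g (x * y) (X * Y) := by
  unfold Fus; rw [map_mul, map_mul, h1.eq, h2.eq]; group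

theorem Fus.one : Fus φ g 1 1 := by simp [Fus]

theorem Fus.inv (h1 : Fus φ g x X) : Fus φ g x⁻¹ X⁻¹ := by
  unfold Fus; rw [map_inv, map_inv, h1.eq]; group

theorem Fus.comp (h1 : Fus φ g x X) (h2 : Fus φ k X Y) : Fus φ (k * g) x Y := by
  unfold Fus; rw [h2.eq, h1.eq]; group

theorem Fus.symm (h1 : Fus φ g x X) : Fus φ g⁻¹ X x := by
  unfold Fus; rw [h1.eq]; group

theorem Fus.isConj (h1 : Fus φ g x X) : IsConj (ff φ x) (ff φ X) := isConj_iff.2 ⟨g, h1.eq.symm⟩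

theorem Fus.cast {x' X' : Tm} (h1 : Fus φ g x X) (e1 : x = x') (e2 : X = X') : Fus φ g x' X' :=
  e1 ▸ e2 ▸ h1

theorem fusT (j x : Tm) : Fus φ (ff φ j) x (j * x * j⁻¹) := by simp [Fus]

theorem fusT' (j : Tm) (e : X = j * x * j⁻¹) : Fus φ (ff φ j) x X := e ▸ fusT j x

theorem fusW (w : Wm) (e : tau X = w * tau x * w⁻¹) : Fus φ (φ w) x X := by
  simp [Fus, ff, e]

theorem fus_self : Fus φ g x x ↔ g * ff φ x = ff φ x * g := by
  unfold Fus; rw [eq_mul_inv_iff_mul_eq, eq_comm]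

theorem fus_refl : Fus φ 1 x x := by simp [Fus]

def pre (φ : Wm →* G) (g : G) (K : Subgroup Tm) : Subgroup Tm where
  carrier := {x | ∃ X ∈ K, Fus φ g x X}
  mul_mem' := fun ⟨_, a, b⟩ ⟨_, c, d⟩ => ⟨_, mul_mem a c, b.mul d⟩
  one_mem' := ⟨1, one_mem _, Fus.one⟩
  inv_mem' := fun ⟨_, a, b⟩ => ⟨_, inv_mem a, b.inv⟩

theorem mem_pre {K : Subgroup Tm} (h1 : X ∈ K) (h2 : Fus φ g x X) : x ∈ pre φ g K := ⟨X, h1, h2⟩

theorem Nm_of_pre [Finite G] {K : Subgroup Tm} (h : K ≤ pre φ g K) : g ∈ Nm(K.map (ff φ)) := by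
  refine mem_normalizer_of_conj_mem ?_
  rintro _ ⟨x, hx, rfl⟩
  obtain ⟨X, h1, h2⟩ := h hx
  exact ⟨X, h1, h2⟩

theorem pre_of_Nm {K : Subgroup Tm} (h : g ∈ Nm(K.map (ff φ))) (hx : x ∈ K) :
    ∃ X ∈ K, Fus φ g x X := conj_mem_of_mem_normalizer h ⟨x, hx, rfl⟩

theorem J_le_Nm [Finite G] {K : Subgroup Tm} (h : ∀ j : Tm, j.e = false → ∀ x ∈ K, j * x * j⁻¹ ∈ K) :
    Jm.map (ff φ) ≤ Nm(K.map (ff φ)) := by
  rintro _ ⟨j, hj, rfl⟩
  exact Nm_of_pre fun x hx => mem_pre (h j hj x hx) (fusT j x)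

theorem mem_Cz_of {K : Subgroup Tm} (h : K ≤ (Cx(g)).comap (ff φ)) : g ∈ Cz(K.map (ff φ)) := by
  rintro _ ⟨x, hx, rfl⟩
  exact mem_Cx.1 (h hx)

theorem Fus.mem_comap (h : Fus φ g x x) : x ∈ (Cx(g)).comap (ff φ) :=
  mem_Cx.2 (fus_self.1 h).symm

theorem fus_of_Cz {K : Subgroup Tm} (h : g ∈ Cz(K.map (ff φ))) (hx : x ∈ K) : Fus φ g x x :=
  fus_self.2 (h _ ⟨x, hx, rfl⟩).symm

theorem fus_y1 : Fus φ (φ y1) a1 v1 ∧ Fus φ (φ y1) v1 (v1 * a1) ∧ Fus φ (φ y1) (v1 * a1) a1 ∧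
    Fus φ (φ y1) t2 t2 ∧ Fus φ (φ y1) a2 a2 :=
  ⟨fusW _ (by decide +kernel), fusW _ (by decide +kernel), fusW _ (by decide +kernel),
    fusW _ (by decide +kernel), fusW _ (by decide +kernel)⟩

theorem cA (h : isA x) : IsConj (ff φ a1) (ff φ x) := by
  obtain ⟨j, rfl | rfl⟩ := repA x h
  exacts [(fusT j _).isConj, fus_y1.1.isConj.trans (fusT j _).isConj]

theorem cZ (h : isZ x) : IsConj (ff φ zz) (ff φ x) := by
  obtain ⟨j, rfl | rfl | rfl⟩ := repZ x h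
  exacts [(fusT j _).isConj, (fusW y1 (by decide +kernel)).isConj.trans (fusT j _).isConj,
    (fusW (y1 * y2) (by decide +kernel)).isConj.trans (fusT j _).isConj]

theorem cT (h : isT x) : IsConj (ff φ t2) (ff φ x) := by
  obtain ⟨j, rfl⟩ := repT x h
  exact (fusT j _).isConj

theorem cU (h : isU x) : IsConj (ff φ (t1 * t2)) (ff φ x) := by
  obtain ⟨j, rfl⟩ := repU x h
  exact (fusT j _).isConj

theorem cW (h : isW x) : IsConj (ff φ (a1 * t2)) (ff φ x) := by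
  obtain ⟨j, rfl | rfl⟩ := repW x h
  exacts [(fusT j _).isConj, (fusW y1 (by decide +kernel)).isConj.trans (fusT j _).isConj]

theorem cS (h : isS x) : IsConj (ff φ ss) (ff φ x) := by
  obtain ⟨j, rfl⟩ := repS x h
  exact (fusT j _).isConj

namespace Hyp

variable [Finite G] (h : Hyp φ)
include h

theorem finj : Function.Injective (ff φ) := h.inj.comp tau_inj

theorem iff (h1 : Fus φ g x X) (h2 : Fus φ g y Y) : X = Y ↔ x = y := by
  rw [← h.finj.eq_iff, h1.eq, h2.eq, mul_left_inj, mul_right_inj, h.finj.eq_iff]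

theorem eq (h1 : Fus φ g x X) (h2 : Fus φ g y Y) (e : x = y) : X = Y := (h.iff h1 h2).2 e

theorem ne (h1 : Fus φ g x X) (h2 : Fus φ g y Y) (e : x ≠ y) : X ≠ Y := (h.iff h1 h2).not.2 e

theorem sq (h1 : Fus φ g x X) (e : x * x = 1) : X * X = 1 := h.eq (h1.mul h1) Fus.one e

theorem ne1 (h1 : Fus φ g x X) (e : x ≠ 1) : X ≠ 1 := h.ne h1 Fus.one e

theorem comm (h1 : Fus φ g x X) (h2 : Fus φ g y Y) (e : x * y = y * x) : X * Y = Y * X :=
  h.eq (h1.mul h2) (h2.mul h1) e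

theorem pg (K : Subgroup Tm) : IsPGroup 2 (K.map (ff φ)) := h.syl.pgrp.to_le (map_le_range _ _)

theorem mem_map {K : Subgroup Tm} : ff φ x ∈ K.map (ff φ) ↔ x ∈ K := mem_map_iff_mem h.finj

theorem cent_le (x : Tm) : (Cx(x)).map (ff φ) ≤ Cx(ff φ x) := by
  rintro _ ⟨y, hy, rfl⟩
  rw [mem_Cx, ← map_mul, ← map_mul, mem_Cx.1 hy]

theorem ext {S : Subgroup G} {x0 : Tm} (hS : SylIn 2 S Cx(ff φ x0)) (hST : S ≤ (ff φ).range)
    (hc : IsConj (ff φ x) (ff φ x0)) :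
    ∃ g, Fus φ g x x0 ∧ ∀ y, y * x = x * y → ∃ Y, ff φ Y ∈ S ∧ Fus φ g y Y := by
  obtain ⟨c, hc⟩ := isConj_iff.1 hc
  obtain ⟨k, hk, hle⟩ := hS.exists_cj_le (isPGroup_cj (h.pg Cx(x)) c)
    (by rw [← hc, ← cj_Cx]; exact cj_mono c (h.cent_le x))
  refine ⟨k * c, Fus.comp hc.symm (mem_Cx'.1 hk).symm, fun y hy => ?_⟩
  rw [← cj_mul, cj_le_iff_forall] at hle
  have h1 := hle _ ⟨y, mem_Cx.2 hy, rfl⟩
  obtain ⟨Y, hY⟩ := hST h1
  exact ⟨Y, hY ▸ h1, hY⟩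

theorem thomp (hx : x * x = 1) :
    ∃ g, (∀ y, y * x = x * y → ∃ Y, Fus φ g y Y) ∧ ∀ X, Fus φ g x X → chi X = 0 := by
  have hl := Function.leftInverse_invFun h.finj
  obtain ⟨g, h1, h2⟩ := thompson_extremal (ℓ := fun g => chi (Function.invFun (ff φ) g)) h.syl
    (by rintro _ ⟨a, rfl⟩ _ ⟨b, rfl⟩; simp only [← map_mul, hl _, chi_mul])
    (h.pg Cx(x)) (t := ff φ x) ⟨x, mem_Cx.2 rfl, rfl⟩ (h.cent_le x)
    (by rw [pow_two, ← map_mul, hx, map_one])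
    fun f hf => addOn_eq_zero_of_mem_commutator hf (h.perf ▸ mem_top _)
  refine ⟨g, fun y hy => cj_le_iff_forall.1 h1 _ ⟨y, mem_Cx.2 hy, rfl⟩, fun X hX => ?_⟩
  rwa [← hX.eq, hl] at h2

theorem inJ {dom : Tm → Prop} [DecidablePred dom] (hd : ∀ y, dom y → ∃ Y, Fus φ g y Y)
    (hX : Fus φ g x X) (hx : x * x = 1)
    (hc : 13 ≤ (Finset.univ.filter fun w : Tm => dom w ∧ w * w = 1 ∧ w * x = x * w).card) :
    X.e = false := by
  by_contra hn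
  have h1 := cnt12 X (by simpa using hn) (h.sq hX hx)
  choose! ψ hψ using hd
  refine absurd (hc.trans ((Finset.card_le_card_of_injOn ψ (fun w hw => ?_)
    fun a ha b hb e => ?_).trans h1)) (by omega)
  · simp only [Finset.coe_filter, Finset.mem_univ, true_and, Set.mem_setOf_eq] at hw ⊢
    exact ⟨h.sq (hψ w hw.1) hw.2.1, h.comm (hψ w hw.1) hX hw.2.2⟩
  · simp only [Finset.coe_filter, Finset.mem_univ, true_and, Set.mem_setOf_eq] at ha hb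
    exact (h.iff (hψ a ha.1) (hψ b hb.1)).1 e

theorem wc (hd : ∀ y : Tm, y.e = false → ∃ Y, Fus φ g y Y) : g ∈ Nm(Jm.map (ff φ)) := by
  have key : ∀ y : Tm, y.e = false → y * y = 1 → y ∈ pre φ g Jm := fun y hy hy2 => by
    obtain ⟨Y, hY⟩ := hd y hy
    exact mem_pre (h.inJ hd hY hy2 (cntJ y hy hy2)) hY
  refine Nm_of_pre fun y hy => ?_
  obtain ⟨p, h1, h2, h3⟩ := twoInv y hy
  have := mul_mem (key p h1 h2) (key _ (mul_e _ _ h1 hy) h3)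
  rwa [← mul_assoc, h2, one_mul] at this

theorem sylZ : SylIn 2 (ff φ).range Cx(ff φ zz) := h.syl.mono (by
  rintro _ ⟨y, rfl⟩
  rw [mem_Cx, ← map_mul, ← map_mul, zz_central]) le_top

theorem naz : ¬ IsConj (ff φ a1) (ff φ zz) := fun hc => by
  obtain ⟨g, h1, h2⟩ := h.ext h.sylZ le_rfl hc
  have h3 : ∀ y, y * a1 = a1 * y → ∃ Y, Fus φ g y Y := fun y hy => (h2 y hy).imp fun _ a => a.2
  obtain ⟨V, hV⟩ := h3 v1 (by decide)
  obtain ⟨T, hT⟩ := h3 t1 (by decide)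
  obtain ⟨V', hV'⟩ := h3 v2 (by decide)
  obtain ⟨T', hT'⟩ := h3 t2 (by decide)
  have e1 := h.inJ h3 hV (by decide) (cntA _ (by simp))
  have e2 := h.inJ h3 hT (by decide) (cntA _ (by simp))
  have e3 := h.inJ h3 hV' (by decide) (cntA _ (by simp))
  have e4 := h.inJ h3 hT' (by decide) (cntA _ (by simp))
  exact h.ne (hV'.mul hT') (hT'.mul hV') (by decide) (cz_comm _ (fact_naz V e1 (h.sq hV (by decide))
    T e2 (h.sq hT (by decide)) (h.eq ((hV.mul hT).mul (hV.mul hT)) h1 (by decide)) V' e3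
    (h.comm hV' hV (by decide)) (h.comm hV' hT (by decide))) T' e4)

theorem nAZ (h1 : Fus φ g x X) (ha : IsConj (ff φ a1) (ff φ x)) (hz : IsConj (ff φ zz) (ff φ X)) :
    False := h.naz ((ha.trans h1.isConj).trans hz.symm)

theorem nZA (h1 : Fus φ g x X) (hz : IsConj (ff φ zz) (ff φ x)) (ha : IsConj (ff φ a1) (ff φ X)) :
    False := h.nAZ h1.symm ha hz

theorem J_le_Cx {c : Tm} (hc : cz c) : Jm.map (ff φ) ≤ Cx(ff φ c) := by
  rintro _ ⟨y, hy, rfl⟩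
  rw [mem_Cx, ← map_mul, ← map_mul, cz_comm c hc y hy]

theorem sylJ : SylIn 2 (Jm.map (ff φ)) Cx(ff φ a1) := by
  refine ⟨h.J_le_Cx (by decide), h.pg _, fun Q hQ hQC hJQ q hq => ?_⟩
  obtain ⟨g, -, hg⟩ := h.syl.exists_cj_le hQ le_top
  rw [cj_le_iff_forall] at hg
  have hN := h.wc (g := g) fun y hy => hg _ (hJQ ⟨y, hy, rfl⟩)
  obtain ⟨V, hV, hV'⟩ := pre_of_Nm hN (x := v1 * t1) rfl
  obtain ⟨Q', hQ'⟩ := hg q hq
  have hA := (hV'.mul hV').cast (show _ = a1 by decide) rfl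
  have h1 : Q'.e = false := cz_e (V * V) (sq_cz V hV) (h.ne1 hA (by decide))
    (fun e => h.nAZ hA (IsConj.refl _) (e ▸ IsConj.refl _)) Q' (h.finj (by
      rw [map_mul (ff φ) Q', map_mul (ff φ) _ Q', hQ', hA.eq]
      calc _ = g * (q * ff φ a1) * g⁻¹ := by group
        _ = _ := by rw [mem_Cx.1 (hQC hq)]; group))
  have := conj_mem_of_mem_normalizer' hN (x := ff φ Q') ⟨Q', h1, rfl⟩
  rw [hQ'] at this
  simpa [mul_assoc] using this

theorem nj {n : G} (hn : n ∈ Nm(Jm.map (ff φ))) (h1 : Fus φ n a1 a1) :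
    ∃ V, cz (v1 * V) ∧ Fus φ n v1 V := by
  obtain ⟨V, e1, hV⟩ := pre_of_Nm hn (x := v1) rfl
  obtain ⟨T, e2, hT⟩ := pre_of_Nm hn (x := t1) rfl
  obtain ⟨V', e3, hV'⟩ := pre_of_Nm hn (x := v2) rfl
  obtain ⟨T', e4, hT'⟩ := pre_of_Nm hn (x := t2) rfl
  have hA := ((hV'.mul hT').mul (hV'.mul hT')).cast (show _ = a2 by decide) rfl
  have eA : V' * T' * (V' * T') = a2 := by
    rcases sq_cz _ (mul_e _ _ e3 e4) with e | e | e | e
    · exact absurd e (h.ne1 hA (by decide))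
    · exact absurd e (h.ne hA h1 (by decide))
    · exact e
    · exact (h.nAZ hA (cA (by decide)) (e ▸ IsConj.refl _)).elim
  have h2 : Fus φ n a2 a2 := hA.cast rfl eA
  have hc : ∀ c, cz c → Fus φ n c c := by
    rintro c (rfl | rfl | rfl | rfl)
    exacts [Fus.one, h1, h2, (h1.mul h2).cast (by decide) (by decide)]
  have r1 := fact_NJ1 V' e3 (h.sq hV' (by decide)) T' e4 (h.sq hT' (by decide)) eA
  rcases fact_NJ2 V e1 (h.sq hV (by decide))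
    (r1 V e1 (h.comm hV hV' (by decide)) (h.comm hV hT' (by decide))) T e2 (h.sq hT (by decide))
    (r1 T e2 (h.comm hT hV' (by decide)) (h.comm hT hT' (by decide)))
    (h.eq ((hV.mul hT).mul (hV.mul hT)) h1 (by decide)) with e | ⟨e, e'⟩
  · exact ⟨V, e, hV⟩
  exfalso
  have vv : ∀ x : Tm, v1 * (v1 * x) = x := fun x => by
    rw [← mul_assoc, show v1 * v1 = 1 by decide, one_mul]
  have tt : ∀ x : Tm, t1 * (t1 * x) = x := fun x => by
    rw [← mul_assoc, show t1 * t1 = 1 by decide, one_mul]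
  have s1 : ∀ X, cz (v1 * X) → ∃ Y, cz (t1 * Y) ∧ Fus φ n X Y := fun X hX =>
    ⟨V * (v1 * X), by rw [← mul_assoc]; exact cz_mul _ e _ hX,
      (hV.mul (hc _ hX)).cast (vv X) rfl⟩
  have s2 : ∀ X, cz (t1 * X) → ∃ Y, cz (v1 * Y) ∧ Fus φ n X Y := fun X hX =>
    ⟨T * (t1 * X), by rw [← mul_assoc]; exact cz_mul _ e' _ hX,
      (hT.mul (hc _ hX)).cast (tt X) rfl⟩
  have s3 : ∀ i : ℕ, ∃ Y, cz (t1 * Y) ∧ Fus φ (n ^ (2 * i + 1)) v1 Y := fun i => by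
    induction i with
    | zero => exact ⟨V, e, by simpa using hV⟩
    | succ i ih =>
      obtain ⟨Y, a, b⟩ := ih
      obtain ⟨Y', a', b'⟩ := s2 Y a
      obtain ⟨Y'', a'', b''⟩ := s1 Y' a'
      refine ⟨Y'', a'', ?_⟩
      rw [show 2 * (i + 1) + 1 = 2 * i + 1 + 1 + 1 by ring, pow_succ', pow_succ']
      exact (b.comp b').comp b''
  obtain ⟨a, m, ⟨i, rfl⟩, hm⟩ := Nat.exists_eq_two_pow_mul_odd (orderOf_pos n).ne'
  have hJ : zpowers (n ^ (2 * i + 1)) ≤ Jm.map (ff φ) := h.sylJ.le_of_le_Nm'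
    (isPGroup_zpowers (k := a) (by rw [← pow_mul, mul_comm, ← hm, pow_orderOf_eq_one]))
    (zpowers_le.2 (pow_mem (mem_Cx.2 (fus_self.1 h1)) _)) (zpowers_le.2 (pow_mem hn _))
  obtain ⟨j, hj, ej⟩ := hJ (mem_zpowers _)
  obtain ⟨Y, a, b⟩ := s3 i
  rw [← ej] at b
  exact fact_NJ3 j hj (h.eq b (fusT j v1) rfl ▸ a)

theorem ce (h1 : Fus φ g v1 v1) (h2 : Fus φ g a1 a1) (h3 : Fus φ g a2 a2) :
    ∃ x : Tm, x.e = false ∧ ff φ x = g := by
  have hN : Jm.map (ff φ) ≤ Nm(Cz(Em.map (ff φ))) := (J_le_Nm E_conj).trans (Nm_le_Nm_Cz _)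
  have hC : Cz(Em.map (ff φ)) ≤ Cx(ff φ a1) := Cz_le_Cx ⟨a1, show inE a1 by decide, rfl⟩
  have hch : ChP 2 Cz(Em.map (ff φ)) :=
    chP_Cz_of_chP_Cx (h.pg _) ⟨zz, show inE zz by decide, rfl⟩ h.chp
  have hQ : pCoreOf 2 Cz(Em.map (ff φ)) ≤ Jm.map (ff φ) :=
    h.sylJ.le_of_le_Nm (isPGroup_pCoreOf _) ((pCoreOf_le _).trans hC)
      (hN.trans (normalizer_le_normalizer_pCoreOf _))
  have hP : IsPGroup 2 Cz(Em.map (ff φ)) := isPGroup_of_forall_coprime fun y hy ho => by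
    have hyN : y ∈ Nm(pCoreOf 2 Cz(Em.map (ff φ))) :=
      normalizer_le_normalizer_pCoreOf _ (le_normalizer hy)
    have nxt : ∀ x : Tm, ff φ x ∈ pCoreOf 2 Cz(Em.map (ff φ)) →
        inR x ∧ ∃ X, ff φ X ∈ pCoreOf 2 Cz(Em.map (ff φ)) ∧ Fus φ y x X := fun x hx => by
      refine ⟨fact_R x (h.mem_map.1 (hQ hx)) (h.finj ?_), ?_⟩
      · rw [map_mul, map_mul]
        exact (pCoreOf_le _ hx _ ⟨v1, show inE v1 by decide, rfl⟩).symm
      · have := conj_mem_of_mem_normalizer hyN hx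
        obtain ⟨X, -, e⟩ := hQ this
        exact ⟨X, e ▸ this, e⟩
    have hE : ∀ x X, Fus φ y x X → (inE x ↔ inE X) := fun x X hx =>
      ⟨fun e => h.eq (fus_of_Cz hy e) hx rfl ▸ e, fun e => (h.iff (fus_of_Cz hy e) hx).1 rfl ▸ e⟩
    have h4 : y ^ 4 ∈ Cz(pCoreOf 2 Cz(Em.map (ff φ))) := mem_centralizer_of_conj_eq fun q hq => by
      obtain ⟨x0, -, rfl⟩ := hQ hq
      obtain ⟨r0, x1, q1, f1⟩ := nxt x0 hq
      obtain ⟨r1, x2, q2, f2⟩ := nxt x1 q1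
      have e := fact_CE x0 r0 x1 r1 (hE _ _ f1) (h.iff (f1.mul f1) Fus.one).symm x2 (nxt x2 q2).1
        (hE _ _ f2) (h.iff (f2.mul f2) Fus.one).symm (hE _ _ (f1.inv.mul f2))
      have f3 := f1.comp f2
      have f4 := (fus_of_Cz hy e).comp (fus_of_Cz hy e)
      have f5 := f3.comp ((f3.mul f4).cast (mul_inv_cancel_left _ _) rfl)
      have : x2 * (x0⁻¹ * x2) = x0 := by
        calc _ = x0 * (x0⁻¹ * x2 * (x0⁻¹ * x2)) := by group
          _ = x0 := by rw [E_sq _ e, mul_one]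
      rw [this] at f5
      rw [show y ^ 4 = y * y * (y * y) by simp [pow_succ, mul_assoc]]
      exact f5.eq.symm
    have h5 : y ^ 4 = 1 := eq_one_of_mem_of_coprime (isPGroup_pCoreOf _)
      (chP_iff.1 hch (mi (pow_mem hy 4) h4))
      (Nat.Coprime.coprime_dvd_left (orderOf_pow_dvd 4) ho)
    exact orderOf_eq_one_iff.1 ((ho.pow_right 2).eq_one_of_dvd (orderOf_dvd_of_pow_eq_one h5))
  exact h.sylJ.le_of_le_Nm hP hC hN (mem_Cz_of (Em_le h1.mem_comap h2.mem_comap h3.mem_comap))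

end Hyp

end CfH7.SW
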