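import Cfsg.Agent.H7.SW2
import Cfsg.Agent.H4.D8b
import Cfsg.Agent.OD.Helper7x4587453145

/-! No perfect group of even characteristic with `3`-rank two contains `S₄ ≀ 2` with odd index. -/

set_option autoImplicit false
set_option linter.unusedSectionVars false
set_option maxHeartbeats 400000

open Cfsg Subgroup CfH9 Equiv

namespace CfH7.SW

variable {G : Type*} [Group G] {φ : Wm →* G} {g k : G} {x y X Y : Tm}

def Z4 (c : Tm) : Prop := c = 1 ∨ c = a1 ∨ c = t2 ∨ c = a1 * t2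

theorem fix_lemma {y j c c1 : G} (hy : y * y * y = 1) (e1 : y * j * y⁻¹ = j * c)
    (e2 : c1 = y * c * y⁻¹) (hc : c * c1 = c1 * c) (h2 : c1 * c1 = 1) :
    j * c1 * y = y * (j * c1) := by
  have e3 : j * c * c1 * (y * c1 * y⁻¹) = j := by
    calc _ = y * (y * (j * c) * y⁻¹) * y⁻¹ := by
          rw [show y * (j * c) * y⁻¹ = y * j * y⁻¹ * (y * c * y⁻¹) by group, ← e2, e1,
            show y * (j * c * c1) * y⁻¹ = y * j * y⁻¹ * (y * c * y⁻¹) * (y * c1 * y⁻¹) by group,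
            ← e2, e1]
      _ = (y * y * y) * j * (y * y * y)⁻¹ := by rw [← e1]; group
      _ = j := by rw [hy]; group
  have e4 : y * c1 * y⁻¹ = (c * c1)⁻¹ := by
    rw [eq_inv_iff_mul_eq_one, ← mul_right_inj j, mul_one]
    calc _ = j * (c * c1)⁻¹ * (c * c1 * (y * c1 * y⁻¹)) * (c * c1) := by group
      _ = j * (c * c1)⁻¹ * (j⁻¹ * (j * c * c1 * (y * c1 * y⁻¹))) * (c * c1) := by group
      _ = j := by rw [e3]; group
  rw [eq_comm, ← mul_inv_eq_iff_eq_mul]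
  calc _ = y * j * y⁻¹ * (y * c1 * y⁻¹) := by group
    _ = j * (c * (c * c1)⁻¹) := by rw [e1, e4, mul_assoc]
    _ = j * c1 := by
      rw [hc, show c * (c1 * c)⁻¹ = c1⁻¹ by group, ← eq_inv_of_mul_eq_one_left h2]

theorem cnt_conj [Finite G] {ι κ : Type} {L : Subgroup G} {t : G} {l : ι → G} (hl : ∀ i, l i ∈ L)
    {m : κ → G} (hm : ∀ i, m i ∈ L) (hmt : ∀ i, m i * t = t * m i) (mi : Function.Injective m)
    (li : Function.Injective fun i => l i * t * (l i)⁻¹) :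
    Nat.card ι * Nat.card κ ≤ Nat.card L := by
  rw [← Nat.card_prod]
  refine Nat.card_le_card_of_injective (fun p => ⟨l p.1 * m p.2, mul_mem (hl _) (hm _)⟩) ?_
  rintro ⟨a, b⟩ ⟨c, d⟩ e
  have e1 : l a * m b = l c * m d := congrArg Subtype.val e
  have key : ∀ a b, l a * t * (l a)⁻¹ = l a * m b * t * (l a * m b)⁻¹ := fun a b => by
    rw [mul_assoc (l a) (m b), hmt]; group
  obtain rfl : a = c := li (by simp only []; rw [key a b, key c d, e1])
  rw [mi (mul_left_cancel e1)]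

namespace Hyp

variable [Finite G] (h : Hyp φ)
include h

theorem imR (hd : ∀ y, y * t2 = t2 * y → ∃ Y, Fus φ g y Y) : ∃ V T A, Fus φ g v1 V ∧
    Fus φ g t1 T ∧ Fus φ g a2 A ∧ V.e = false ∧ T.e = false ∧ A.e = false := by
  obtain ⟨V, hV⟩ := hd v1 (by decide)
  obtain ⟨T, hT⟩ := hd t1 (by decide)
  obtain ⟨A, hA⟩ := hd a2 (by decide)
  exact ⟨V, T, A, hV, hT, hA, h.inJ hd hV (by decide) (cntR _ (by simp)),
    h.inJ hd hT (by decide) (cntR _ (by simp)), h.inJ hd hA (by decide) (cntR _ (by simp))⟩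

theorem thT : IsConj (ff φ t2) (ff φ a1) ∨ IsConj (ff φ t2) (ff φ zz) := by
  obtain ⟨g, h1, h2⟩ := h.thomp (x := t2) (by decide)
  obtain ⟨X, hX⟩ := h1 t2 rfl
  obtain ⟨V, T, A, hV, hT, -, eV, eT, -⟩ := h.imR h1
  rcases fact_ker X (h2 X hX) (h.sq hX (by decide)) (h.ne1 hX (by decide)) with e | e | e
  · exact Or.inl (hX.isConj.trans (cA e).symm)
  · exact Or.inr (hX.isConj.trans (cZ e).symm)
  · exact absurd (fact_U X e V eV (h.comm hV hX (by decide)) T eT (h.comm hT hX (by decide)))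
      (h.ne (hV.mul hT) (hT.mul hV) (by decide))

theorem exj : ∃ j, Fus φ j a1 a1 ∧ Fus φ j t2 t2 ∧ (∃ c, Z4 c ∧ c ≠ 1 ∧ Fus φ j a2 (c * a2)) ∧
    (∃ c, Z4 c ∧ Fus φ j v1 (c * v1)) ∧ (∃ c, Z4 c ∧ Fus φ j t1 (c * t1)) ∧
    ((IsConj (ff φ a1) (ff φ t2) ∧ IsConj (ff φ zz) (ff φ (a1 * t2))) ∨
      (IsConj (ff φ zz) (ff φ t2) ∧ IsConj (ff φ a1) (ff φ (a1 * t2)))) := by
  obtain ⟨g, T2, e2, hT2, hd⟩ : ∃ g T2, (T2 = a1 ∨ T2 = zz) ∧ Fus φ g t2 T2 ∧
      ∀ y, y * t2 = t2 * y → ∃ Y, Fus φ g y Y := by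
    rcases h.thT with hc | hc
    · obtain ⟨g, h1, h2⟩ := h.ext h.sylJ (map_le_range _ _) hc
      exact ⟨g, _, Or.inl rfl, h1, fun y hy => (h2 y hy).imp fun _ a => a.2⟩
    · obtain ⟨g, h1, h2⟩ := h.ext h.sylZ le_rfl hc
      exact ⟨g, _, Or.inr rfl, h1, fun y hy => (h2 y hy).imp fun _ a => a.2⟩
  obtain ⟨V, T, A, hV, hT, hA, eV, eT, eA⟩ := h.imR hd
  obtain ⟨A1, hA1, cA1⟩ : ∃ A1, Fus φ g a1 A1 ∧ cz A1 :=
    ⟨_, ((hV.mul hT).mul (hV.mul hT)).cast (by decide) rfl, sq_cz _ (mul_e _ _ eV eT)⟩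
  have n1 : A1 ≠ 1 := h.ne1 hA1 (by decide)
  have n2 : A1 ≠ zz := fun e => h.nAZ hA1 (IsConj.refl _) (e ▸ IsConj.refl _)
  have n3 : A1 ≠ T2 := h.ne hA1 hT2 (by decide)
  have cT2 : cz T2 := by rcases e2 with rfl | rfl <;> decide
  have J3 := fact_J3 A1 cA1 n1 T2 cT2 (h.ne1 hT2 (by decide)) n3
  obtain ⟨j0, ej, hj⟩ := fact_J2 A eA fun hc => by
    rcases (J3 A).1 hc with e | e | e | e
    exacts [h.ne1 hA (by decide) e, h.ne hA hA1 (by decide) e, h.ne hA hT2 (by decide) e,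
      h.ne hA (hA1.mul hT2) (by decide) e]
  have key : ∀ x X, Fus φ g x X → X.e = false → ∃ c, Z4 c ∧ Fus φ g c (j0 * X * j0⁻¹ * X⁻¹) ∧
      Fus φ (g⁻¹ * (ff φ j0 * g)) x (c * x) := fun x X hx eX => by
    obtain ⟨c, h1, h2⟩ : ∃ c, Z4 c ∧ Fus φ g c (j0 * X * j0⁻¹ * X⁻¹) := by
      rcases (J3 _).1 (fact_J1 j0 ej X eX) with e | e | e | e <;> rw [e]
      exacts [⟨1, by simp [Z4], Fus.one⟩, ⟨a1, by simp [Z4], hA1⟩, ⟨t2, by simp [Z4], hT2⟩,
        ⟨a1 * t2, by simp [Z4], hA1.mul hT2⟩]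
    exact ⟨c, h1, h2, (hx.comp (fusT j0 X)).comp ((h2.mul hx).cast rfl (by group)).symm⟩
  have k2 : ∀ x X, Fus φ g x X → cz X → Fus φ (g⁻¹ * (ff φ j0 * g)) x x := fun x X hx eX =>
    (hx.comp (fusT' j0 (by rw [← cz_comm X eX j0 ej]; group))).comp hx.symm
  obtain ⟨c, c1, c2, c3⟩ := key a2 A hA eA
  refine ⟨_, k2 _ _ hA1 cA1, k2 _ _ hT2 cT2, ⟨c, c1, fun e => hj (h.eq c2 Fus.one e), c3⟩,
    (key v1 V hV eV).imp fun _ a => ⟨a.1, a.2.2⟩, (key t1 T hT eT).imp fun _ a => ⟨a.1, a.2.2⟩, ?_⟩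
  rcases e2 with rfl | rfl
  · exact Or.inl ⟨hT2.isConj.symm,
      (cZ ((fact_J4 A1 cA1 n1 n2).2 n3)).trans (hA1.mul hT2).isConj.symm⟩
  · exact Or.inr ⟨hT2.isConj.symm, (cA (fact_J4 A1 cA1 n1 n2).1).trans (hA1.mul hT2).isConj.symm⟩

theorem not_fus_D {n : G} (hn : n ∈ Nm(Dm.map (ff φ))) (h1 : Fus φ n a2 a1) : False := by
  have hJD : Jm.map (ff φ) ≤ Nm(Dm.map (ff φ)) := J_le_Nm D_conj
  obtain ⟨k, hk, hle⟩ := (h.sylJ.mono (le_inf hJD h.sylJ.le) inf_le_right).exists_cj_le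
    (isPGroup_cj (h.pg Jm) n) (le_inf ((cj_mono n hJD).trans (cj_eq_of_mem hn).le)
      (by rw [h1.eq, ← cj_Cx]; exact cj_mono n (h.J_le_Cx (by decide))))
  rw [← cj_mul] at hle
  have h2 : Fus φ (k * n) a2 a1 := h1.comp (fus_self.2 (mem_Cx.1 (mi2 hk)))
  have h3 : ff φ ss ∈ Nm(Jm.map (ff φ)) := Nm_of_pre fun x hx => mem_pre (J_conj ss x hx) (fusT ss x)
  obtain ⟨V, e, hV⟩ := h.nj (mul_mem (mem_normalizer_of_cj_le hle) h3)
    ((fusT' ss (by decide)).comp h2)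
  have h4 := (fusT' (φ := φ) (X := v2) (x := v1) ss (by decide)).symm.comp hV
  rw [mul_inv_cancel_right] at h4
  have h5 : ∀ V, cz (v1 * V) → inD V := by decide +kernel
  obtain ⟨X, h6, h7⟩ := pre_of_Nm (inv_mem (mul_mem (mi1 hk) hn)) (h5 V e)
  exact absurd (h.eq h7 h4.symm rfl ▸ h6 : inD v2) (by decide)

theorem exj2 : IsConj (ff φ a1) (ff φ t2) ∧ IsConj (ff φ zz) (ff φ (a1 * t2)) ∧
    ∃ j, Fus φ j v1 v1 ∧ Fus φ j a1 a1 ∧ Fus φ j t2 t2 ∧ Fus φ j a2 (t2 * a2) ∧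
      ∃ c, Z4 c ∧ Fus φ j t1 (c * t1) := by
  obtain ⟨j, h1, h2, ⟨c, z1, n1, h3⟩, ⟨c', z2, h4⟩, h5, ⟨ht, hw⟩ | ⟨ht, hw⟩⟩ := h.exj
  · refine ⟨ht, hw, ?_⟩
    obtain rfl : c = t2 := by
      rcases z1 with rfl | rfl | rfl | rfl
      exacts [absurd rfl n1, (h.nAZ h3 (cA (by decide)) (cZ (by decide))).elim, rfl,
        (h.nAZ h3 (cA (by decide)) (hw.trans (cW (by decide)))).elim]
    rcases z2 with rfl | rfl | rfl | rfl
    · exact ⟨j, h4.cast rfl (one_mul _), h1, h2, h3, h5⟩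
    · obtain ⟨c, a, b⟩ := h5
      exact ⟨j * ff φ t1, (fusT' t1 (by decide)).comp ((h1.mul h4).cast rfl (by decide)),
        (fusT' t1 (by decide)).comp h1, (fusT' t1 (by decide)).comp h2,
        (fusT' t1 (by decide)).comp h3, c, a, (fusT' t1 (by decide)).comp b⟩
    · exact (h.nAZ h4 (cA (by decide)) (hw.trans (cW (by decide)))).elim
    · exact (h.nAZ h4 (cA (by decide)) (hw.trans (cW (by decide)))).elim
  exfalso
  obtain rfl : c = a1 * t2 := by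
    rcases z1 with rfl | rfl | rfl | rfl
    exacts [absurd rfl n1, (h.nAZ h3 (cA (by decide)) (cZ (by decide))).elim,
      (h.nAZ h3 (cA (by decide)) (ht.trans (cT (by decide)))).elim, rfl]
  have hy : φ y1 ∈ Nm(Dm.map (ff φ)) := Nm_of_pre fun d hd => by
    obtain ⟨d', a, b⟩ := fact_yD d hd
    exact mem_pre a (fusW y1 b)
  have hv : ff φ v2 ∈ Nm(Dm.map (ff φ)) := J_le_Nm D_conj ⟨v2, rfl, rfl⟩
  obtain ⟨y1, y2, -, y4, -⟩ := fus_y1 (φ := φ)
  have f1 := (h3.comp (fusT' v2 (by decide))).comp (y1.mul y4)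
  have hj : inD (c' * v1) → j ∈ Nm(Dm.map (ff φ)) := fun e => Nm_of_pre (Dm_le (mem_pre e h4)
    (mem_pre (mem_Dm.2 (by decide)) h1) (mem_pre (mem_Dm.2 (by decide)) h2)
    (mem_pre (mem_Dm.2 (by decide)) h3))
  rcases z2 with rfl | rfl | rfl | rfl
  · exact h.nZA (h4.mul h3) (cZ (by decide)) (hw.trans (cW (by decide)))
  · exact h.nZA (h4.mul h3) (cZ (by decide)) (hw.trans (cW (by decide)))
  · have hj := hj (by decide)
    exact h.not_fus_D (mul_mem (inv_mem hy) (mul_mem (inv_mem hj) (mul_mem hy (mul_mem hv hj))))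
      ((f1.comp (h4.cast rfl (by decide)).symm).comp y1.symm)
  · have hj := hj (by decide)
    exact h.not_fus_D (mul_mem (inv_mem hy) (mul_mem (inv_mem hj) (mul_mem hy
      (mul_mem hy (mul_mem hv hj)))))
      (((f1.comp (y2.mul y4)).comp (h4.cast rfl (by decide)).symm).comp y1.symm)

theorem exj3 : IsConj (ff φ a1) (ff φ t2) ∧ IsConj (ff φ zz) (ff φ (a1 * t2)) ∧
    ∃ j, j * φ y1 = φ y1 * j ∧ Fus φ j v1 v1 ∧ Fus φ j a2 (t2 * a2) ∧
      (Fus φ j t1 t1 ∨ Fus φ j t1 (t2 * t1)) := by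
  obtain ⟨ht, hw, j, h1, h2, h3, h4, c, z1, h5⟩ := h.exj2
  refine ⟨ht, hw, ?_⟩
  obtain ⟨u1, u2, u3, u4, u5⟩ := fus_y1 (φ := φ)
  obtain ⟨d, ed, hd⟩ := h.ce (((u1.symm.comp h2).comp u1).comp h1.symm)
    (((u3.symm.comp (h1.mul h2)).comp u3).comp h2.symm)
    (((u5.symm.comp h4).comp (u4.mul u5)).comp h4.symm)
  have f1 := ((u1.symm.comp h2).comp u1).comp h1.symm
  have f2 := ((u4.symm.comp h3).comp u4).comp h3.symm
  rw [← hd, fus_self, ← map_mul, ← map_mul, h.finj.eq_iff] at f1 f2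
  have iD := fact_D d ed f1 f2
  obtain ⟨d', iD', e'⟩ := fact_yD d iD
  have hy : j * ff φ d' * φ y1 = φ y1 * (j * ff φ d') := fix_lemma (c := ff φ d)
    (by rw [← map_mul, ← map_mul, show y1 * y1 * y1 = 1 by decide +kernel, map_one])
    (by rw [hd]; group) (fusW y1 e').eq (by rw [← map_mul, ← map_mul, D_comm d iD d' iD'])
    (by rw [← map_mul, D_sq d' iD', map_one])
  have k1 : ∀ x, inD x → Fus φ (ff φ d') x x := fun x hx =>
    fusT' d' (by rw [D_comm d' iD' x hx]; group)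
  refine ⟨_, hy, (k1 _ (by decide)).comp h1, (k1 _ (by decide)).comp h4, ?_⟩
  have k2 : ∀ X, Fus φ (j * ff φ d') t1 X → tau X * y1 * (tau X)⁻¹ = y1⁻¹ := fun X hX => by
    have e1 : ff φ t1 * φ y1 * (ff φ t1)⁻¹ = (φ y1)⁻¹ := by
      simpa [ff] using congrArg φ (show tau t1 * y1 * (tau t1)⁻¹ = y1⁻¹ by decide +kernel)
    refine h.inj ?_
    rw [map_mul, map_mul, map_inv, map_inv]
    change ff φ X * _ * (ff φ X)⁻¹ = _
    rw [hX.eq]
    generalize j * ff φ d' = J at hy ⊢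
    calc _ = J * (ff φ t1 * (J⁻¹ * (φ y1 * J)) * (ff φ t1)⁻¹) * J⁻¹ := by group
      _ = J * (ff φ t1 * φ y1 * (ff φ t1)⁻¹) * J⁻¹ := by rw [← hy]; group
      _ = (J * φ y1 * J⁻¹)⁻¹ := by rw [e1]; group
      _ = _ := by rw [hy]; group
  rcases D_t1 d' iD' with e | e
  · have f := (fusT' d' e).comp h5
    rcases z1 with rfl | rfl | rfl | rfl
    exacts [Or.inl (f.cast rfl (one_mul _)), absurd (k2 _ f) (by decide +kernel), Or.inr f,
      absurd (k2 _ f) (by decide +kernel)]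
  · have f := (fusT' d' e).comp (h2.mul h5)
    rcases z1 with rfl | rfl | rfl | rfl
    exacts [absurd (k2 _ f) (by decide +kernel), Or.inl (f.cast rfl (by decide)),
      absurd (k2 _ f) (by decide +kernel), Or.inr (f.cast rfl (by decide))]

theorem caseS (ht : IsConj (ff φ a1) (ff φ t2)) (hw : IsConj (ff φ zz) (ff φ (a1 * t2)))
    (hu : IsConj (ff φ zz) (ff φ (t1 * t2))) : False := by
  have nA : ∀ {g x X}, Fus φ g x X → IsConj (ff φ zz) (ff φ x) → ¬ isA X ∧ ¬ isT X :=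
    fun hx hz => ⟨fun e => h.nZA hx hz (cA e), fun e => h.nZA hx hz (ht.trans (cT e))⟩
  obtain ⟨g, h1, h2⟩ := h.thomp (x := ss) (by decide)
  obtain ⟨X, hX⟩ := h1 ss rfl
  have hs : IsConj (ff φ ss) (ff φ a1) ∨ IsConj (ff φ ss) (ff φ zz) := by
    rcases fact_ker X (h2 X hX) (h.sq hX (by decide)) (h.ne1 hX (by decide)) with e | e | e
    exacts [Or.inl (hX.isConj.trans (cA e).symm), Or.inr (hX.isConj.trans (cZ e).symm),
      Or.inr (hX.isConj.trans (hu.trans (cU e)).symm)]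
  rcases hs with hs | hs
  · obtain ⟨g, h1, h2⟩ := h.ext h.sylJ (map_le_range _ _) hs
    have key : ∀ x X, Fus φ g x X → X.e = false → isZ x → x * x = 1 → x ≠ 1 → isS (ss * x) →
        good X := fun x X hx eX iZ e2 e1 iS =>
      have ha := hs.symm.trans (cS iS)
      ⟨eX, h.sq hx e2, h.ne1 hx e1, (nA hx (cZ iZ)).1, (nA hx (cZ iZ)).2,
        fun e => h.nAZ (h1.mul hx) ha (cZ e), fun e => h.nAZ (h1.mul hx) ha (hw.trans (cW e)),
        fun e => h.nAZ (h1.mul hx) ha (hu.trans (cU e))⟩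
    obtain ⟨P, eP, hP⟩ := h2 (v1 * v2) (by decide)
    obtain ⟨Q, eQ, hQ⟩ := h2 zz (by decide)
    rw [h.mem_map] at eP eQ
    exact fact_sa P (key _ _ hP eP (by decide) (by decide) (by decide) (by decide)) Q
      (key _ _ hQ eQ (by decide) (by decide) (by decide) (by decide))
      (key _ _ (hP.mul hQ) (mul_e _ _ eP eQ) (by decide) (by decide) (by decide) (by decide))
  · obtain ⟨g, h1, h2⟩ := h.ext h.sylZ le_rfl hs
    have k1 : ∀ x, isZ x ∨ isU x ∨ isS x → IsConj (ff φ zz) (ff φ x) := by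
      rintro x (e | e | e)
      exacts [cZ e, hu.trans (cU e), hs.symm.trans (cS e)]
    have key : ∀ x X, Fus φ g x X → isZ x ∨ isU x ∨ isS x →
        isZ (ss * x) ∨ isU (ss * x) ∨ isS (ss * x) → nz X := fun x X hx e1 e2 =>
      ⟨(nA hx (k1 _ e1)).1, (nA hx (k1 _ e1)).2, (nA (h1.mul hx) (k1 _ e2)).1,
        (nA (h1.mul hx) (k1 _ e2)).2⟩
    obtain ⟨P, -, hP⟩ := h2 (v1 * v2) (by decide)
    obtain ⟨Q, -, hQ⟩ := h2 (t1 * t2) (by decide)
    have hZ := (hP.mul hQ).mul (hP.mul hQ)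
    exact fact_sz P (h.sq hP (by decide)) (key _ _ hP (by decide) (by decide)) Q
      (h.sq hQ (by decide)) (key _ _ hQ (by decide) (by decide)) (h.sq hZ (by decide))
      (h.ne1 hZ (by decide)) (h.ne hZ h1 (by decide)) (key _ _ hZ (by decide) (by decide))
      (key _ _ (hP.mul hZ) (by decide) (by decide)) (key _ _ (hQ.mul hZ) (by decide) (by decide))

theorem rank3 {L : Subgroup G} (hL : L = Cx(φ y1) ⊓ Cx(ff φ v1))
    (e : L ≃* alternatingGroup (Fin 6)) : False := by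
  obtain ⟨u1, u2, u3, -⟩ := fus_y1 (φ := φ)
  let p : alternatingGroup (Fin 6) := ⟨swap 0 1 * swap 1 2, Perm.mem_alternatingGroup.2 (by decide)⟩
  let q : alternatingGroup (Fin 6) := ⟨swap 3 4 * swap 4 5, Perm.mem_alternatingGroup.2 (by decide)⟩
  have hLy : ∀ g : L, g * φ y1 = φ y1 * g := fun g => mem_Cx.1 (mi1 (hL.le g.2))
  have hLv : ∀ g : L, Fus φ g v1 v1 := fun g => fus_self.2 (mem_Cx.1 (mi2 (hL.le g.2)))
  have hLN : ∀ g : L, (g : G) ∈ Nm(Vm.map (ff φ)) := fun g => Nm_of_pre (Vm_le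
    (mem_pre (mem_Vm.2 (by decide)) (hLv g)) (mem_pre (mem_Vm.2 (by decide)) (x := a1) (X := a1) (by
      have := (u1.comp (hLv g)).comp u1.symm
      rwa [hLy, inv_mul_cancel_left] at this)))
  have hyN : φ y1 ∈ Nm(Vm.map (ff φ)) := Nm_of_pre (Vm_le (mem_pre (mem_Vm.2 (by decide)) u2)
    (mem_pre (mem_Vm.2 (by decide)) u1))
  have ez : ∀ x : G, x ^ 3 = 1 → IsElementaryAbelian 3 (zpowers x) := fun x hx =>
    ⟨inferInstance, by rintro _ ⟨n, rfl⟩; rw [← zpow_natCast, ← zpow_mul, mul_comm, zpow_mul,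
      zpow_natCast, hx, one_zpow]⟩
  have ec : ∀ x y : G, x * y = y * x → zpowers x ≤ Cz(zpowers y) := fun x y hxy => by
    rw [Cz_zpowers]; exact zpowers_le.2 (mem_Cx.2 hxy)
  have e3 : ∀ x : alternatingGroup (Fin 6), x ^ 3 = 1 → ((e.symm x : L) : G) ^ 3 = 1 := fun x hx => by
    rw [← SubgroupClass.coe_pow, ← map_pow, hx, map_one]; rfl
  have hE : IsElementaryAbelian 3 (zpowers (φ y1) ⊔ (zpowers (e.symm p : G) ⊔ zpowers (e.symm q : G))) := by
    refine elemAb_sup (ez _ (by rw [← map_pow, show y1 ^ 3 = 1 by decide +kernel, map_one]))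
      (elemAb_sup (ez _ (e3 _ (by decide +kernel))) (ez _ (e3 _ (by decide +kernel))) (ec _ _ ?_)) ?_
    · rw [← Subgroup.coe_mul, ← Subgroup.coe_mul, ← map_mul, ← map_mul,
        show p * q = q * p by decide +kernel]
    · rw [Cz_sup]; exact le_inf (ec _ _ (hLy _).symm) (ec _ _ (hLy _).symm)
  have hN : zpowers (φ y1) ⊔ (zpowers (e.symm p : G) ⊔ zpowers (e.symm q : G)) ≤
      Nm(Vm.map (ff φ)) :=
    sup_le (zpowers_le.2 hyN) (sup_le (zpowers_le.2 (hLN _)) (zpowers_le.2 (hLN _)))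
  have h9 := h.qt _ (elemAb_subgroupOf hE _).1 (elemAb_subgroupOf hE _).2
  rw [card_subgroupOf hN] at h9
  have h27 := Nat.card_le_card_of_injective (α := Fin 3 × Fin 3 × Fin 3)
    (β := (zpowers (φ y1) ⊔ (zpowers (e.symm p : G) ⊔ zpowers (e.symm q : G)) : Subgroup G))
    (fun i => ⟨φ y1 ^ i.1.1 * (e.symm (p ^ i.2.1.1 * q ^ i.2.2.1) : L), by
      rw [map_mul, map_pow, map_pow]
      exact mul_mem (mem_sup_left (pow_mem (mem_zpowers _) _)) (mem_sup_right (mul_mem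
        (mem_sup_left (pow_mem (mem_zpowers _) _)) (mem_sup_right (pow_mem (mem_zpowers _) _))))⟩) (by
    rintro ⟨a, b⟩ ⟨c, d⟩ e0
    have e1 : φ y1 ^ a.1 * (e.symm (p ^ b.1.1 * q ^ b.2.1) : L) =
      φ y1 ^ c.1 * (e.symm (p ^ d.1.1 * q ^ d.2.1) : L) := congrArg Subtype.val e0
    have k1 : ∀ (a : ℕ) (g : L), φ y1 ^ a * g * ff φ v1 * (φ y1 ^ a * g)⁻¹ =
        φ (y1 ^ a * tau v1 * (y1 ^ a)⁻¹) := fun a g => by
      rw [mul_assoc (φ y1 ^ a), fus_self.1 (hLv g)]; simp [ff, mul_assoc]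
    have k2 : ∀ a c : Fin 3, y1 ^ a.1 * tau v1 * (y1 ^ a.1)⁻¹ = y1 ^ c.1 * tau v1 * (y1 ^ c.1)⁻¹ →
        a = c := by decide +kernel
    obtain rfl : a = c := k2 a c (h.inj (by rw [← k1 _ (e.symm (p ^ b.1.1 * q ^ b.2.1)), e1, k1]))
    have k3 : ∀ b d : Fin 3 × Fin 3, p ^ b.1.1 * q ^ b.2.1 = p ^ d.1.1 * q ^ d.2.1 → b = d := by
      decide +kernel
    rw [k3 b d (e.symm.injective (Subtype.ext (mul_left_cancel e1)))])
  rw [Nat.card_prod, Nat.card_prod, Nat.card_fin] at h27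
  omega

theorem caseL {j : G} (hy : j * φ y1 = φ y1 * j) (h1 : Fus φ j v1 v1) (h2 : Fus φ j a2 (t2 * a2))
    (h3 : Fus φ j t1 (t2 * t1)) : False := by
  obtain ⟨L, hL⟩ : ∃ L : Subgroup G, L = Cx(φ y1) ⊓ Cx(ff φ v1) := ⟨_, rfl⟩
  obtain ⟨u1, -⟩ := fus_y1 (φ := φ)
  have mL : ∀ k : S4, φ (Wr.inr k) ∈ L := fun k => hL.ge (mi
    (mem_Cx.2 (by rw [← map_mul, ← map_mul]; exact congrArg φ (inr_comm k c3)))
    (mem_Cx.2 (by
      rw [show ff φ v1 = φ ⟨dP dV, 1, false⟩ from congrArg φ (tau_l dV), ← map_mul, ← map_mul]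
      exact congrArg φ (inr_comm k _))))
  have jL : j ∈ L := hL.ge (mi (mem_Cx.2 hy) (mem_Cx.2 (fus_self.1 h1)))
  let ψ : DihedralGroup 4 →* L := ((ff φ).comp (Wr.inr.comp dl)).codRestrict L fun m => by
    have := mL (dP (dl m))
    rw [← tau_inr] at this
    exact this
  have hψ : ∀ m, (ψ m : G) = ff φ (Wr.inr (dl m)) := fun m => rfl
  have cm : CfH4.CM ψ (.r 2) := by
    refine ⟨fun a b e => dl_inj (Wr.inr_injective (h.finj (congrArg Subtype.val e :))), dl_zc,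
      fun g hg => ?_⟩
    have e1 : g * φ y1 = φ y1 * g := mem_Cx.1 (mi1 (hL.le g.2))
    have e2 : Fus φ g v1 v1 := fus_self.2 (mem_Cx.1 (mi2 (hL.le g.2)))
    have e3 : Fus φ g a1 a1 := by
      have := (u1.comp e2).comp u1.symm
      rwa [e1, inv_mul_cancel_left] at this
    have e4 : Fus φ g a2 a2 := fus_self.2 (by rw [← dl_z, ← hψ]; exact congrArg Subtype.val hg)
    obtain ⟨x, ex, hx⟩ := h.ce e2 e3 e4
    have e5 := fact_cy x ex (h.inj (by rw [map_mul, map_mul]; exact hx ▸ e1))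
    obtain ⟨m, hm⟩ := dl_surj x.r
    exact ⟨m, Subtype.ext (by rw [hψ, ← hx, hm]; exact congrArg _ (Wr.ext' e5.symm rfl ex.symm))⟩
  rcases cm.d8_both (isConj_iff.2 ⟨⟨_, mL c3⟩, Subtype.ext (by
      simp only [Subgroup.coe_mul, Subgroup.coe_inv, hψ, dl_z, dl_a]
      exact (fusW (φ := φ) (Wr.inr c3) (by decide +kernel)).eq.symm)⟩)
    (isConj_iff.2 ⟨⟨_, jL⟩, Subtype.ext (by
      simp only [Subgroup.coe_mul, Subgroup.coe_inv, hψ, dl_z, dl_b]
      exact h2.eq.symm)⟩) with ⟨⟨e⟩⟩ | ⟨⟨e⟩⟩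
  swap
  · exact h.rank3 hL e
  let l0 : Option (Fin 6) → G := fun i => match i with
    | none => 1
    | some i => φ (Wr.inr (ks i)) * j
  have hl0 : ∀ i, l0 i * ff φ t1 * (l0 i)⁻¹ = φ (ws i) := by
    rintro (_ | i)
    · simp [l0, ws, ff]
    · simp only [l0, ws, map_mul φ, map_inv φ]
      change _ = _ * ff φ (t2 * t1) * _
      rw [h3.eq]; group
  have hm0 : ∀ i, l0 i ∈ L := by
    rintro (_ | i)
    exacts [one_mem _, mul_mem (mL _) jL]
  let l : Option (Option (Fin 6)) → G := fun i => match i with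
    | none => j⁻¹ * l0 (some 1)
    | some i => l0 i
  have nc : ∀ i, l none * ff φ t1 * (l none)⁻¹ ≠ l0 i * ff φ t1 * (l0 i)⁻¹ := fun i e => by
    refine ws_ncomm (h.inj ?_)
    have e1 : φ (ws i) * ff φ t1 = ff φ t1 * φ (ws i) := by
      simpa [ff] using congrArg φ (ws_comm i)
    rw [← hl0, ← e] at e1
    rw [map_mul φ, map_mul φ, ← hl0]
    change _ * ff φ (t2 * t1) = ff φ (t2 * t1) * _
    rw [h3.eq]
    simp only [l] at e1
    generalize l0 (some 1) = w at e1 ⊢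
    calc _ = j * (j⁻¹ * w * ff φ t1 * (j⁻¹ * w)⁻¹ * ff φ t1) * j⁻¹ := by group
      _ = _ := by rw [e1]; group
  have := cnt_conj (L := L) (t := ff φ t1) (l := l) (m := fun k : S4 => φ (Wr.inr k))
    (by rintro (_ | i); exacts [mul_mem (inv_mem jL) (hm0 (some 1)), hm0 i]) mL
    (fun k => by
      rw [show ff φ t1 = φ ⟨dP dT, 1, false⟩ from congrArg φ (tau_l dT), ← map_mul, ← map_mul]
      exact congrArg φ (inr_comm k _))
    (h.inj.comp Wr.inr_injective) (by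
      rintro (_ | a) (_ | b) e
      exacts [rfl, absurd e (nc b), absurd e.symm (nc a),
        congrArg some (ws_inj (h.inj ((hl0 a).symm.trans (e.trans (hl0 b)))))])
  rw [Nat.card_congr e.toEquiv, CfH4.card_SL32] at this
  simp [Fintype.card_perm, Nat.factorial] at this

theorem false : False := by
  obtain ⟨ht, hw, j, hy, h1, h2, h3 | h3⟩ := h.exj3
  · exact h.caseS ht hw (((hw.trans (cW (by decide))).trans (h3.mul h2).isConj).trans
      (cU (by decide)).symm)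
  · exact h.caseL hy h1 h2 h3

end Hyp

theorem no_s4wr2 [Finite G] [IsSimpleGroup G] (hG : ¬ IsMulCommutative G) (hQ : IsQTKE G)
    (T : Sylow 2 G) (M : Subgroup G) (hM : (T : Subgroup G) ≤ M)
    (e : M ≃* blockStabilizerS4wr2) : False := by
  let φ : Wm →* G := M.subtype.comp (e.symm.toMonoidHom.comp (om.codRestrict _ om_mem))
  have inj : Function.Injective φ := (subtype_injective M).comp (e.symm.injective.comp
    fun a b e => om_inj (congrArg Subtype.val e))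
  have finj : Function.Injective (ff φ) := inj.comp tau_inj
  have c1 : Nat.card (ff φ).range = 128 := by
    rw [← Nat.card_congr (MonoidHom.ofInjective finj).toEquiv, card_Tm]
  have pg : IsPGroup 2 (ff φ).range := IsPGroup.of_card (n := 7) c1
  have syl : SylIn 2 (ff φ).range ⊤ := by
    refine (sylIn_top T).of_card_le pg le_top ?_
    obtain ⟨n, hn⟩ := T.isPGroup'.exists_card_eq
    have d1 : Nat.card T ∣ 40320 := by
      refine (card_dvd_of_le hM).trans ?_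
      rw [Nat.card_congr e.toEquiv]
      refine (card_subgroup_dvd_card _).trans ?_
      simp [Fintype.card_perm, Nat.factorial]
    rw [c1, hn] at *
    by_contra hlt
    have : 8 ≤ n := by
      by_contra hn8
      exact hlt (Nat.pow_le_pow_right (by norm_num) (show n ≤ 7 by omega))
    exact absurd ((pow_dvd_pow 2 this).trans d1) (by norm_num)
  have z2 : ff φ zz ^ 2 ^ 1 = 1 := by rw [← map_pow, show zz ^ 2 ^ 1 = 1 by decide, map_one]
  have z1 : ff φ zz ≠ 1 := fun e => absurd (finj (e.trans (map_one _).symm)) (by decide)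
  refine Hyp.false (φ := φ) ⟨inj, syl, ?_, ?_, ?_⟩
  · rw [← Cz_zpowers]
    refine chP_Cz_of_chP_Nm (hQ.2.2 _ ⟨_, isPGroup_zpowers z2, zpowers_ne_bot' z1, rfl⟩
      ⟨syl.toSylowTop, le_trans ?_ (Cz_le_Nm _)⟩)
    rw [Cz_zpowers]
    rintro _ ⟨y, rfl⟩
    rw [mem_Cx, ← map_mul, ← map_mul, zz_central]
  · refine (Normal.eq_bot_or_eq_top inferInstance).resolve_left fun e => hG ⟨⟨fun a b => ?_⟩⟩
    exact commutatorElement_eq_one_iff_mul_comm.1
      (mem_bot.1 (e.le (commutator_mem_commutator (mem_top a) (mem_top b))))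
  · refine hQ.1 3 (by norm_num) (by norm_num) _ ⟨_, pg.to_le (map_le_range _ _), ?_, rfl⟩
    exact ne_bot_of_mem ⟨a1, mem_Vm.2 (by decide), rfl⟩
      fun e => absurd (finj (e.trans (map_one _).symm)) (by decide)

end CfH7.SW
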